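import Mathlib
import Cfsg.Prelude.Def_DegreeGraph
import Cfsg.Agent.H25.TwoDegrees
import Cfsg.Agent.H56.Clifford
import Cfsg.Agent.S0169

/-!
# Groups whose irreducible character degrees are `1` and a prime (Isaacs, 12.11)
-/

set_option autoImplicit false

open scoped commutatorElement

namespace Cfsg.Agent.H27.DegreeOneP

variable {G : Type*} [Group G]

/-- A commutator of `gh` with an element. -/
theorem comm_mul_left (g h x : G) : ⁅g * h, x⁆ = g * ⁅h, x⁆ * g⁻¹ * ⁅g, x⁆ := by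
  simp only [commutatorElement_def]; group

/-- A commutator with a product. -/
theorem comm_mul_right (g a b : G) : ⁅g, a * b⁆ = ⁅g, a⁆ * (a * ⁅g, b⁆ * a⁻¹) := by
  simp only [commutatorElement_def]; group

variable [Finite G]

/-- Two different subgroups containing the commutator subgroup, both of index `p`, generate. -/
theorem sup_eq_top_of_index_prime {p : ℕ} (hp : p.Prime) {H K : Subgroup G} (hH : H.index = p)
    (hK : K.index = p) (hne : H ≠ K) : H ⊔ K = ⊤ := by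
  by_contra hc
  have hi : ∀ L : Subgroup G, L.index = p → L ≤ H ⊔ K → L = H ⊔ K := by
    intro L hL hle
    refine le_antisymm hle ?_
    rw [← Subgroup.relIndex_eq_one]
    rcases hp.eq_one_or_self_of_dvd _ (hL ▸ Subgroup.relIndex_dvd_index_of_le hle) with h | h
    · exact h
    · refine absurd (Subgroup.index_eq_one.1 ?_) hc
      have h2 := Subgroup.relIndex_mul_index hle
      rw [h, hL] at h2
      have hp0 := hp.pos
      calc (H ⊔ K).index = p * (H ⊔ K).index / p := (Nat.mul_div_cancel_left _ hp0).symm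
        _ = 1 := by rw [h2, Nat.div_self hp0]
  exact hne ((hi H hH le_sup_left).trans (hi K hK le_sup_right).symm)

section GroupPart

variable (A : Subgroup G)

/-- What the degree hypothesis says about a linear character of a maximal abelian subgroup
containing the commutator subgroup. -/
def KeyProp (p : ℕ) (hGA : ∀ g h : G, ⁅g, h⁆ ∈ A) : Prop :=
  ∀ lam : A →* ℂˣ, ∃ H : Subgroup G, A ≤ H ∧
    (∀ g : G, g ∈ H ↔ ∀ a : A, lam ⟨⁅g, (a : G)⁆, hGA g a⟩ = 1) ∧
    (H = ⊤ ∨ (H.index = p ∧ ∀ g ∈ H, ∀ h ∈ H, lam ⟨⁅g, h⁆, hGA g h⟩ = 1))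

variable {A} {p : ℕ} (hp : p.Prime) (hab : ∀ a ∈ A, ∀ b ∈ A, a * b = b * a)
  (hC : ∀ g : G, (∀ a ∈ A, g * a = a * g) → g ∈ A) (hGA : ∀ g h : G, ⁅g, h⁆ ∈ A)

include hab in
/-- Linear characters of an abelian subgroup separate. -/
theorem exists_lam_ne_one (S : Subgroup G) (c : G) (hc : c ∈ A) (hcS : c ∉ S) :
    ∃ lam : A →* ℂˣ, (∀ x : A, (x : G) ∈ S → lam x = 1) ∧ lam ⟨c, hc⟩ ≠ 1 := by
  letI : CommGroup A := { (inferInstance : Group A) with
    mul_comm := fun x y => Subtype.ext (hab x x.2 y y.2) }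
  have h : (QuotientGroup.mk' (S.subgroupOf A)) ⟨c, hc⟩ ≠ 1 := by
    rw [Ne, QuotientGroup.mk'_apply, QuotientGroup.eq_one_iff, Subgroup.mem_subgroupOf]
    exact hcS
  obtain ⟨φ, hφ⟩ := CommGroup.exists_apply_ne_one_of_hasEnoughRootsOfUnity
    (A ⧸ S.subgroupOf A) ℂ h
  exact ⟨φ.comp (QuotientGroup.mk' _), fun x hx => by
    rw [MonoidHom.comp_apply, show QuotientGroup.mk' (S.subgroupOf A) x = 1 from
      (QuotientGroup.eq_one_iff x).2 hx, map_one], hφ⟩

include hab in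
/-- An element all of whose images under linear characters of `A` are trivial is trivial. -/
theorem eq_one_of_forall_lam (c : G) (hc : c ∈ A) (h : ∀ lam : A →* ℂˣ, lam ⟨c, hc⟩ = 1) :
    c = 1 := by
  by_contra hne
  obtain ⟨lam, -, hl⟩ := exists_lam_ne_one hab ⊥ c hc (by simpa using hne)
  exact hl (h lam)

include hp hab hC hGA in
/-- The group-theoretic half of Isaacs 12.11. -/
theorem group_part (hne : A ≠ ⊤) (hkey : KeyProp A p hGA) :
    (∃ B : Subgroup G, B.Normal ∧ (∀ a ∈ B, ∀ b ∈ B, a * b = b * a) ∧ B.index = p) ∨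
      (Subgroup.center G).index = p ^ 3 := by
  classical
  have normal_of_le : ∀ H : Subgroup G, A ≤ H → H.Normal := fun H hAH => ⟨fun x hx g => by
    rw [show g * x * g⁻¹ = ⁅g, x⁆ * x by simp [commutatorElement_def, mul_assoc]]
    exact H.mul_mem (hAH (hGA g x)) hx⟩
  have hAn := normal_of_le A le_rfl
  by_cases hAp : A.index = p
  · exact Or.inl ⟨A, hAn, hab, hAp⟩
  choose Hs hAH hmem hcase using hkey
  have conjA : ∀ (g a : G), a ∈ A → g * a * g⁻¹ ∈ A := fun g a ha => hAn.conj_mem a ha g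
  -- exponent of the quotient
  have hpow : ∀ g : G, g ^ p ∈ A := by
    intro g
    refine hC _ fun a ha => ?_
    rw [← commutatorElement_eq_one_iff_mul_comm]
    refine eq_one_of_forall_lam hab _ (hGA _ _) fun lam => ?_
    refine (hmem lam _).1 ?_ ⟨a, ha⟩
    rcases hcase lam with h | ⟨h, -⟩
    · rw [h]; trivial
    · haveI := normal_of_le _ (hAH lam)
      rw [← h]; exact (Hs lam).pow_index_mem g
  -- an element outside `A` is missed by some inertia group
  have hfaith : ∀ g : G, g ∉ A → ∃ lam, g ∉ Hs lam := by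
    intro g hg
    by_contra hcon
    push Not at hcon
    refine hg (hC g fun a ha => ?_)
    rw [← commutatorElement_eq_one_iff_mul_comm]
    exact eq_one_of_forall_lam hab _ (hGA _ _) fun lam => (hmem lam g).1 (hcon lam) ⟨a, ha⟩
  have hother : ∀ lam, Hs lam ≠ ⊤ → ∃ mu, Hs mu ≠ ⊤ ∧ Hs mu ≠ Hs lam := by
    intro lam hlam
    have hidx : (Hs lam).index = p := ((hcase lam).resolve_left hlam).1
    obtain ⟨g, hgH, hgA⟩ : ∃ g ∈ Hs lam, g ∉ A := by
      by_contra hcon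
      push Not at hcon
      exact hAp (le_antisymm (hAH lam) hcon ▸ hidx)
    obtain ⟨mu, hmu⟩ := hfaith g hgA
    exact ⟨mu, fun h => hmu (h ▸ Subgroup.mem_top g), fun h => hmu (h ▸ hgH)⟩
  have hprod : ∀ lam mu, Hs lam ≠ ⊤ → Hs mu ≠ ⊤ → Hs lam ≠ Hs mu →
      Hs (lam * mu) ≠ ⊤ ∧ Hs (lam * mu) ≠ Hs lam ∧ Hs (lam * mu) ≠ Hs mu := by
    intro lam mu hl hm hne'
    have hil := ((hcase lam).resolve_left hl).1
    have him := ((hcase mu).resolve_left hm).1
    have h1 : ¬ Hs lam ≤ Hs mu := by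
      intro hle
      refine hne' (le_antisymm hle ?_)
      rw [← Subgroup.relIndex_eq_one]
      have h2 := Subgroup.relIndex_mul_index hle
      rw [him, hil] at h2
      exact (Nat.mul_eq_right hp.ne_zero).1 h2
    have h1' : ¬ Hs mu ≤ Hs lam := by
      intro hle
      refine hne' (le_antisymm ?_ hle)
      rw [← Subgroup.relIndex_eq_one]
      have h2 := Subgroup.relIndex_mul_index hle
      rw [him, hil] at h2
      exact (Nat.mul_eq_right hp.ne_zero).1 h2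
    have key : ∀ g ∈ Hs lam, g ∈ Hs (lam * mu) → g ∈ Hs mu := by
      intro g hg hg2
      refine (hmem mu g).2 fun a => ?_
      have := (hmem _ g).1 hg2 a
      rwa [MonoidHom.mul_apply, (hmem lam g).1 hg a, one_mul] at this
    have key' : ∀ g ∈ Hs mu, g ∈ Hs (lam * mu) → g ∈ Hs lam := by
      intro g hg hg2
      refine (hmem lam g).2 fun a => ?_
      have := (hmem _ g).1 hg2 a
      rwa [MonoidHom.mul_apply, (hmem mu g).1 hg a, mul_one] at this
    exact ⟨fun h => h1 fun g hg => key g hg (h ▸ Subgroup.mem_top g),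
      fun h => h1 fun g hg => key g hg (h ▸ hg), fun h => h1' fun g hg => key' g hg (h ▸ hg)⟩
  -- `[G, A]` is central
  have hcomm_conj : ∀ g a : G, a ∈ A → ∀ h : G, h * ⁅g, a⁆ * h⁻¹ = ⁅g, h * a * h⁻¹⁆ := by
    intro g a ha h
    have e1 : h * ⁅g, a⁆ * h⁻¹ = ⁅⁅h, g⁆ * g, h * a * h⁻¹⁆ := by
      simp only [commutatorElement_def]; group
    rw [e1, comm_mul_left, commutatorElement_eq_one_iff_mul_comm.2
      (hab _ (hGA h g) _ (conjA h a ha)), mul_one, hab _ (hGA h g) _ (hGA g _), mul_inv_cancel_right]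
  have hfix : ∀ mu h, h ∈ Hs mu → ∀ c : G, ∀ hc : c ∈ A, mu ⟨h * c * h⁻¹, conjA h c hc⟩ = mu ⟨c, hc⟩ := by
    intro mu h hh c hc
    rw [show (⟨h * c * h⁻¹, conjA h c hc⟩ : A) = ⟨⁅h, (c : G)⁆, hGA h c⟩ * ⟨c, hc⟩ from
      Subtype.ext (by simp [commutatorElement_def]), map_mul, (hmem mu h).1 hh ⟨c, hc⟩, one_mul]
  have hcent : ∀ g a : G, a ∈ A → ∀ h : G, h * ⁅g, a⁆ * h⁻¹ = ⁅g, a⁆ := by
    intro g a ha h
    rw [← div_eq_one, div_eq_mul_inv]
    refine eq_one_of_forall_lam hab _ (A.mul_mem (conjA h _ (hGA g a)) (A.inv_mem (hGA g a)))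
      fun mu => ?_
    suffices hmain : mu ⟨h * ⁅g, a⁆ * h⁻¹, conjA h _ (hGA g a)⟩ = mu ⟨⁅g, a⁆, hGA g a⟩ by
      rw [show (⟨h * ⁅g, a⁆ * h⁻¹ * ⁅g, a⁆⁻¹, _⟩ : A) =
        ⟨h * ⁅g, a⁆ * h⁻¹, conjA h _ (hGA g a)⟩ * ⟨⁅g, a⁆, hGA g a⟩⁻¹ from rfl, map_mul, map_inv,
        hmain, mul_inv_cancel]
    by_cases hmu : Hs mu = ⊤
    · exact hfix mu h (hmu ▸ Subgroup.mem_top h) _ _
    obtain ⟨lam, hlam, hne'⟩ := hother mu hmu
    obtain ⟨hlm, -, hlm2⟩ := hprod lam mu hlam hmu hne'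
    haveI := normal_of_le _ (hAH mu)
    have hsup := sup_eq_top_of_index_prime hp ((hcase mu).resolve_left hmu).1
      ((hcase lam).resolve_left hlam).1 (Ne.symm hne')
    obtain ⟨g₂, hg₂, g₁, hg₁, hg⟩ := Subgroup.mem_sup_of_normal_left.1 (hsup ▸ Subgroup.mem_top g)
    have hg' : ∀ b : G, ∀ hb : b ∈ A, mu ⟨⁅g, b⁆, hGA g b⟩ = mu ⟨⁅g₁, b⁆, hGA g₁ b⟩ := by
      intro b hb
      rw [show (⟨⁅g, b⁆, hGA g b⟩ : A) = ⟨g₂ * ⁅g₁, b⁆ * g₂⁻¹, conjA g₂ _ (hGA g₁ b)⟩ *
        ⟨⁅g₂, b⁆, hGA g₂ b⟩ from Subtype.ext (by rw [← hg]; exact comm_mul_left g₂ g₁ b), map_mul,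
        (hmem mu g₂).1 hg₂ ⟨b, hb⟩, mul_one, hfix mu g₂ hg₂]
    let T : Subgroup G :=
      { carrier := {x | ∀ b : G, ∀ hb : b ∈ A,
          mu ⟨⁅g, x * b * x⁻¹⁆, hGA g _⟩ = mu ⟨⁅g, b⁆, hGA g b⟩}
        one_mem' := fun b hb => by simp
        mul_mem' := fun {x y} hx hy b hb => by
          have h1 := hx (y * b * y⁻¹) (conjA y b hb)
          rw [hy b hb] at h1
          rw [← h1]
          simp [mul_assoc]
        inv_mem' := fun {x} hx b hb => by
          have h1 := hx (x⁻¹ * b * x⁻¹⁻¹) (conjA x⁻¹ b hb)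
          rw [← h1]
          simp [mul_assoc] }
    have hT : T = ⊤ := top_le_iff.1 ((sup_eq_top_of_index_prime hp
      ((hcase mu).resolve_left hmu).1 ((hcase _).resolve_left hlm).1 (Ne.symm hlm2)).symm.trans_le
      (sup_le (fun x hx b hb => ?_) fun x hx b hb => ?_))
    · rw [show (⟨h * ⁅g, a⁆ * h⁻¹, conjA h _ (hGA g a)⟩ : A) = ⟨⁅g, h * a * h⁻¹⁆, hGA g _⟩ from
        Subtype.ext (hcomm_conj g a ha h)]
      exact (hT ▸ Subgroup.mem_top h : h ∈ T) a ha
    · rw [show (⟨⁅g, x * b * x⁻¹⁆, hGA g _⟩ : A) = ⟨x * ⁅g, b⁆ * x⁻¹, conjA x _ (hGA g b)⟩ from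
        Subtype.ext (hcomm_conj g b hb x).symm]
      exact hfix mu x hx _ _
    · rw [hg' _ (conjA x b hb), hg' b hb]
      have e : ∀ c : G, ∀ hc : c ∈ A, (lam * mu) ⟨⁅g₁, c⁆, hGA g₁ c⟩ = mu ⟨⁅g₁, c⁆, hGA g₁ c⟩ := by
        intro c hc
        rw [MonoidHom.mul_apply, (hmem lam g₁).1 hg₁ ⟨c, hc⟩, one_mul]
      rw [← e _ (conjA x b hb), ← e b hb,
        show (⟨⁅g₁, x * b * x⁻¹⁆, hGA g₁ _⟩ : A) = ⟨x * ⁅g₁, b⁆ * x⁻¹, conjA x _ (hGA g₁ b)⟩ from
        Subtype.ext (hcomm_conj g₁ b hb x).symm]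
      exact hfix _ x hx _ _
  -- `|A : Z(G)| = p`
  have hcZ : ∀ g a : G, a ∈ A → ⁅g, a⁆ ∈ Subgroup.center G := fun g a ha =>
    Subgroup.mem_center_iff.2 fun h => by
      conv_rhs => rw [← hcent g a ha h]
      group
  have hZA : Subgroup.center G ≤ A := fun z hz =>
    hC z fun a _ => (Subgroup.mem_center_iff.1 hz a).symm
  have hleft : ∀ g h a : G, a ∈ A → ⁅g * h, a⁆ = ⁅g, a⁆ * ⁅h, a⁆ := fun g h a ha => by
    rw [comm_mul_left, hcent h a ha g, Subgroup.mem_center_iff.1 (hcZ g a ha)]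
  have hright : ∀ g a b : G, a ∈ A → b ∈ A → ⁅g, a * b⁆ = ⁅g, a⁆ * ⁅g, b⁆ := fun g a b ha hb => by
    rw [comm_mul_right, hcent g b hb a]
  have hkerp : ∀ g a : G, a ∈ A → ⁅g, a⁆ ^ p = 1 := by
    intro g a ha
    have hn : ∀ n : ℕ, ⁅g ^ n, a⁆ = ⁅g, a⁆ ^ n := fun n => by
      induction n with
      | zero => simp [commutatorElement_def]
      | succ n ih => rw [pow_succ, hleft _ _ _ ha, ih, pow_succ]
    rw [← hn, commutatorElement_eq_one_iff_mul_comm]
    exact hab _ (hpow g) a ha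
  let homL : ∀ (mu : A →* ℂˣ) (a : A), G →* ℂˣ := fun mu a => MonoidHom.mk'
    (fun g => mu ⟨⁅g, (a : G)⁆, hGA g a⟩) fun g h => by
      rw [show (⟨⁅g * h, (a : G)⁆, hGA _ _⟩ : A) = ⟨⁅g, (a : G)⁆, hGA g a⟩ * ⟨⁅h, (a : G)⁆, hGA h a⟩
        from Subtype.ext (hleft g h a a.2), map_mul]
  have hsame : ∀ lam mu, Hs lam ≠ ⊤ → Hs mu ≠ ⊤ → Hs lam ≠ Hs mu → ∀ a : A,
      (∀ g, mu ⟨⁅g, (a : G)⁆, hGA g a⟩ = 1) → ∀ g, lam ⟨⁅g, (a : G)⁆, hGA g a⟩ = 1 := by
    intro lam mu hl hm hne' a ha g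
    obtain ⟨hlm, hlm1, -⟩ := hprod lam mu hl hm hne'
    have hsup := sup_eq_top_of_index_prime hp ((hcase lam).resolve_left hl).1
      ((hcase _).resolve_left hlm).1 (Ne.symm hlm1)
    have hle : Hs lam ⊔ Hs (lam * mu) ≤ (homL lam a).ker := by
      refine sup_le (fun x hx => (hmem lam x).1 hx a) fun x hx => ?_
      have h1 := (hmem _ x).1 hx a
      rw [MonoidHom.mul_apply, ha x, mul_one] at h1
      exact h1
    exact hle (hsup ▸ Subgroup.mem_top g)
  obtain ⟨g0, -, hg0⟩ := SetLike.exists_of_lt hne.lt_top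
  obtain ⟨mu0, hg0'⟩ := hfaith g0 hg0
  have hmu0 : Hs mu0 ≠ ⊤ := fun h => hg0' (h ▸ Subgroup.mem_top g0)
  have hi0 : (Hs mu0).index = p := ((hcase mu0).resolve_left hmu0).1
  have hsupg : Hs mu0 ⊔ Subgroup.zpowers g0 = ⊤ := by
    by_contra hcon
    have h1 := Subgroup.relIndex_mul_index (le_sup_left : Hs mu0 ≤ Hs mu0 ⊔ Subgroup.zpowers g0)
    rw [hi0] at h1
    rcases hp.eq_one_or_self_of_dvd _ ⟨_, h1.symm⟩ with h2 | h2
    · exact hg0' (Subgroup.relIndex_eq_one.1 h2 (Subgroup.mem_sup_right (Subgroup.mem_zpowers g0)))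
    · exact hcon (Subgroup.index_eq_one.1 ((Nat.mul_eq_left hp.ne_zero).1 (h2 ▸ h1)))
  have hzero : ∀ a : A, mu0 ⟨⁅g0, (a : G)⁆, hGA g0 a⟩ = 1 → (a : G) ∈ Subgroup.center G := by
    intro a ha
    have hK : ∀ g, mu0 ⟨⁅g, (a : G)⁆, hGA g a⟩ = 1 := by
      intro g
      have hle : Hs mu0 ⊔ Subgroup.zpowers g0 ≤ (homL mu0 a).ker :=
        sup_le (fun x hx => (hmem mu0 x).1 hx a) (by rw [Subgroup.zpowers_le]; exact ha)
      exact hle (hsupg ▸ Subgroup.mem_top g)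
    have hall : ∀ (lam : A →* ℂˣ) (g : G), lam ⟨⁅g, (a : G)⁆, hGA g a⟩ = 1 := by
      intro lam g
      by_cases hl : Hs lam = ⊤
      · exact (hmem lam g).1 (hl ▸ Subgroup.mem_top g) a
      by_cases hl0 : Hs lam = Hs mu0
      · obtain ⟨nu, hnu, hnu0⟩ := hother mu0 hmu0
        exact hsame lam nu hl hnu (hl0 ▸ hnu0.symm) a (hsame nu mu0 hnu hmu0 hnu0 a hK) g
      · exact hsame lam mu0 hl hmu0 hl0 a hK g
    refine Subgroup.mem_center_iff.2 fun g => ?_
    exact commutatorElement_eq_one_iff_mul_comm.1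
      (eq_one_of_forall_lam hab _ (hGA g a) fun lam => hall lam g)
  -- the homomorphism `a ↦ μ₀[g₀, a]` has kernel `Z(G)` and image of order `p`
  let e0 : A →* ℂˣ := MonoidHom.mk' (fun a => mu0 ⟨⁅g0, (a : G)⁆, hGA g0 a⟩) fun a b => by
    rw [show (⟨⁅g0, ((a * b : A) : G)⁆, hGA _ _⟩ : A) = ⟨⁅g0, (a : G)⁆, hGA g0 a⟩ *
      ⟨⁅g0, (b : G)⁆, hGA g0 b⟩ from Subtype.ext (hright g0 a b a.2 b.2), map_mul]
  have hker : e0.ker = (Subgroup.center G).subgroupOf A := by
    ext a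
    rw [MonoidHom.mem_ker, Subgroup.mem_subgroupOf]
    refine ⟨hzero a, fun h => ?_⟩
    show mu0 _ = 1
    rw [show (⟨⁅g0, (a : G)⁆, hGA g0 a⟩ : A) = 1 from Subtype.ext
      (commutatorElement_eq_one_iff_mul_comm.2 (Subgroup.mem_center_iff.1 h g0)), map_one]
  obtain ⟨a0, ha0A, ha0⟩ : ∃ a ∈ A, a ∉ Subgroup.center G := by
    by_contra hcon
    push Not at hcon
    exact hg0 (hC g0 fun a ha => Subgroup.mem_center_iff.1 (hcon a ha) g0)
  have hrel : (Subgroup.center G).relIndex A = p := by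
    rw [Subgroup.relIndex, ← hker, Subgroup.index_ker]
    have hle : e0.range ≤ rootsOfUnity p ℂ := by
      rintro _ ⟨a, rfl⟩
      rw [mem_rootsOfUnity]
      show mu0 _ ^ p = 1
      rw [← map_pow, show (⟨⁅g0, (a : G)⁆, hGA g0 a⟩ : A) ^ p = 1 from
        Subtype.ext (hkerp g0 a a.2), map_one]
    haveI : NeZero p := ⟨hp.ne_zero⟩
    have hd : Nat.card e0.range ∣ p := by
      have := Subgroup.card_dvd_of_le hle
      rwa [show Nat.card (rootsOfUnity p ℂ) = p from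
        HasEnoughRootsOfUnity.natCard_rootsOfUnity ℂ p] at this
    refine (hp.eq_one_or_self_of_dvd _ hd).resolve_left fun h1 => ha0 ?_
    have hb : e0.range = ⊥ := Subgroup.eq_bot_of_card_eq _ h1
    exact hzero ⟨a0, ha0A⟩ (Subgroup.mem_bot.1 (hb ▸ MonoidHom.mem_range.2 ⟨⟨a0, ha0A⟩, rfl⟩))
  have hZi : (Subgroup.center G).index = p * A.index := by
    rw [← Subgroup.relIndex_mul_index hZA, hrel]
  by_cases hr : A.index = p ^ 2
  · right
    rw [hZi, hr]; ring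
  left
  -- the case `|G : A| ≥ p ^ 3`
  have hZa : Subgroup.center G ⊔ Subgroup.zpowers a0 = A := by
    refine le_antisymm (sup_le hZA (Subgroup.zpowers_le.2 ha0A)) ?_
    rw [← Subgroup.relIndex_eq_one]
    have h1 := Subgroup.relIndex_mul_relIndex (Subgroup.center G)
      (Subgroup.center G ⊔ Subgroup.zpowers a0) A le_sup_left
      (sup_le hZA (Subgroup.zpowers_le.2 ha0A))
    rw [hrel] at h1
    rcases hp.eq_one_or_self_of_dvd _ ⟨_, h1.symm⟩ with h2 | h2
    · exact absurd (Subgroup.relIndex_eq_one.1 h2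
        (Subgroup.mem_sup_right (Subgroup.mem_zpowers a0))) ha0
    · exact (Nat.mul_eq_left hp.ne_zero).1 (h2 ▸ h1)
  let ψ : G →* G := MonoidHom.mk' (fun g => ⁅g, a0⁆) fun g h => hleft g h a0 ha0A
  have hψker : ∀ g, ψ g = 1 → g ∈ A := by
    intro g hg
    refine hC g fun a ha => ?_
    have hle : A ≤ Subgroup.centralizer {g} := by
      rw [← hZa]
      refine sup_le (fun z hz => ?_) ?_
      · rw [Subgroup.mem_centralizer_singleton_iff]
        exact (Subgroup.mem_center_iff.1 hz g).symm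
      · rw [Subgroup.zpowers_le, Subgroup.mem_centralizer_singleton_iff]
        exact (commutatorElement_eq_one_iff_mul_comm.1 hg).symm
    exact (Subgroup.mem_centralizer_singleton_iff.1 (hle ha)).symm
  have hψA : ∀ a ∈ A, ψ a = 1 := fun a ha =>
    commutatorElement_eq_one_iff_mul_comm.2 (hab a ha a0 ha0A)
  have hψc : ∀ g h, ψ g * h = h * ψ g := fun g h =>
    (Subgroup.mem_center_iff.1 (hcZ g a0 ha0A) h).symm
  have hψp : ∀ g, ψ g ^ p = 1 := fun g => hkerp g a0 ha0A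
  have hψi : ∀ g a : G, a ∈ A → ∃ i : ℤ, ⁅g, a⁆ = ψ g ^ i := by
    intro g a ha
    rw [← hZa] at ha
    haveI : (Subgroup.center G).Normal := inferInstance
    obtain ⟨z, hz, w, ⟨i, rfl⟩, rfl⟩ := Subgroup.mem_sup_of_normal_left.1 ha
    refine ⟨i, ?_⟩
    rw [hright g z _ (hZA hz) (A.zpow_mem ha0A i),
      commutatorElement_eq_one_iff_mul_comm.2 (Subgroup.mem_center_iff.1 hz g), one_mul]
    let r : A →* G := MonoidHom.mk' (fun b => ⁅g, (b : G)⁆) fun b c => hright g b c b.2 c.2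
    exact map_zpow r ⟨a0, ha0A⟩ i
  have hcardψ : Nat.card ψ.range = A.index := by
    rw [← Subgroup.index_ker]
    congr 1
    ext g
    exact ⟨hψker g, hψA g⟩
  have hbig : p ^ 2 < A.index := by
    have hpg : IsPGroup p (G ⧸ A) := fun x => by
      induction x using QuotientGroup.induction_on with
      | H g => exact ⟨1, by rw [pow_one, ← QuotientGroup.mk_pow, (QuotientGroup.eq_one_iff _).2 (hpow g)]⟩
    haveI := Fact.mk hp
    obtain ⟨k, hk⟩ := IsPGroup.iff_card.1 hpg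
    rw [← Subgroup.index_eq_card] at hk
    have h0 : k ≠ 0 := fun h => hne (Subgroup.index_eq_one.1 (by rw [hk, h, pow_zero]))
    have h1 : k ≠ 1 := fun h => hAp (by rw [hk, h, pow_one])
    have h2 : k ≠ 2 := fun h => hr (by rw [hk, h])
    rw [hk]
    exact Nat.pow_lt_pow_right hp.one_lt (by omega)
  have hfree : ∀ u v : G, ∃ l, ∀ i j : ℤ, ψ l ≠ ψ u ^ i * ψ v ^ j := by
    intro u v
    by_contra hcon
    push Not at hcon
    have hsurj : Function.Surjective (fun ij : Fin p × Fin p =>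
        (⟨ψ u ^ (ij.1 : ℕ) * ψ v ^ (ij.2 : ℕ), ψ.range.mul_mem (ψ.range.pow_mem ⟨u, rfl⟩ _)
          (ψ.range.pow_mem ⟨v, rfl⟩ _)⟩ : ψ.range)) := by
      rintro ⟨_, l, rfl⟩
      obtain ⟨i, j, hij⟩ := hcon l
      have hp0 : (p : ℤ) ≠ 0 := by exact_mod_cast hp.ne_zero
      have hred : ∀ (w : G) (n : ℤ), ∃ m : Fin p, ψ w ^ (m : ℕ) = ψ w ^ n := by
        intro w n
        refine ⟨⟨(n % p).toNat, ?_⟩, ?_⟩
        · have h1 := Int.emod_lt_of_pos n (by exact_mod_cast hp.pos : (0 : ℤ) < p)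
          have h2 := Int.emod_nonneg n hp0
          omega
        · rw [← zpow_natCast, Int.toNat_of_nonneg (Int.emod_nonneg n hp0)]
          conv_rhs => rw [← Int.emod_add_mul_ediv n p, zpow_add, zpow_mul, zpow_natCast, hψp,
            one_zpow, mul_one]
      obtain ⟨m, hm⟩ := hred u i
      obtain ⟨m', hm'⟩ := hred v j
      exact ⟨(m, m'), Subtype.ext (by simp [hm, hm', hij])⟩
    have := Nat.card_le_card_of_surjective _ hsurj
    rw [hcardψ, Nat.card_prod, Nat.card_fin, ← pow_two] at this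
    omega
  -- every commutator lies in the span of the two images
  have hspan : ∀ g h : G, ∃ i j : ℤ, ⁅g, h⁆ = ψ g ^ i * ψ h ^ j := by
    intro g h
    let S : Subgroup G :=
      { carrier := {x | ∃ i j : ℤ, x = ψ g ^ i * ψ h ^ j}
        one_mem' := ⟨0, 0, by simp⟩
        mul_mem' := by
          rintro _ _ ⟨i, j, rfl⟩ ⟨i', j', rfl⟩
          refine ⟨i + i', j + j', ?_⟩
          rw [zpow_add, zpow_add]
          have hcm : Commute (ψ h ^ j) (ψ g ^ i') :=
            Commute.zpow_zpow (hψc h (ψ g)) _ _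
          simp only [mul_assoc]
          rw [← mul_assoc (ψ h ^ j), hcm.eq, mul_assoc]
        inv_mem' := by
          rintro _ ⟨i, j, rfl⟩
          refine ⟨-i, -j, ?_⟩
          rw [mul_inv_rev, zpow_neg, zpow_neg]
          exact ((Commute.zpow_zpow (hψc g (ψ h)) _ _).inv_inv).eq.symm }
    show ⁅g, h⁆ ∈ S
    by_contra hns
    obtain ⟨lam, hlS, hl⟩ := exists_lam_ne_one hab S _ (hGA g h) hns
    have hin : ∀ mu : A →* ℂˣ, (∀ x : A, (x : G) ∈ S → mu x = 1) → g ∈ Hs mu ∧ h ∈ Hs mu := by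
      intro mu hmuS
      constructor
      · refine (hmem mu g).2 fun a => hmuS _ ?_
        obtain ⟨i, hi⟩ := hψi g a a.2
        exact ⟨i, 0, by rw [zpow_zero, mul_one]; exact hi⟩
      · refine (hmem mu h).2 fun a => hmuS _ ?_
        obtain ⟨i, hi⟩ := hψi h a a.2
        exact ⟨0, i, by rw [zpow_zero, one_mul]; exact hi⟩
    rcases hcase lam with htop | ⟨-, hker'⟩
    swap
    · exact hl (hker' g (hin lam hlS).1 h (hin lam hlS).2)
    obtain ⟨l, hlnot⟩ := hfree g h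
    obtain ⟨mu, hmuS, hmu⟩ := exists_lam_ne_one hab S _ (hGA l a0)
      (fun ⟨i, j, hij⟩ => hlnot i j hij)
    have hmu_ne : Hs mu ≠ ⊤ := fun ht =>
      hmu ((hmem mu l).1 (ht ▸ Subgroup.mem_top l) ⟨a0, ha0A⟩)
    have hprod_ne : Hs (lam * mu) ≠ ⊤ := fun ht => by
      have h1 := (hmem _ l).1 (ht ▸ Subgroup.mem_top l) ⟨a0, ha0A⟩
      rw [MonoidHom.mul_apply, (hmem lam l).1 (htop ▸ Subgroup.mem_top l) ⟨a0, ha0A⟩, one_mul] at h1
      exact hmu h1
    have hS2 : ∀ x : A, (x : G) ∈ S → (lam * mu) x = 1 := fun x hx => by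
      rw [MonoidHom.mul_apply, hlS x hx, hmuS x hx, one_mul]
    have h2 := ((hcase _).resolve_left hprod_ne).2 g (hin _ hS2).1 h (hin _ hS2).2
    rw [MonoidHom.mul_apply, ((hcase mu).resolve_left hmu_ne).2 g (hin _ hmuS).1 h (hin _ hmuS).2,
      mul_one] at h2
    exact hl h2
  have hcc : ∀ g h x : G, x * ⁅g, h⁆ = ⁅g, h⁆ * x := by
    intro g h x
    obtain ⟨i, j, hij⟩ := hspan g h
    rw [hij]
    exact Subgroup.mem_center_iff.1 ((Subgroup.center G).mul_mem
      ((Subgroup.center G).zpow_mem (hcZ g a0 ha0A) i)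
      ((Subgroup.center G).zpow_mem (hcZ h a0 ha0A) j)) x
  have hbi : ∀ g h k : G, ⁅g, h * k⁆ = ⁅g, h⁆ * ⁅g, k⁆ := fun g h k => by
    rw [comm_mul_right, hcc g k h, mul_inv_cancel_right]
  -- small subgroups of the image behave like lines
  have hdvd : ∀ (S : Subgroup G) (w : G) (n : ℤ), w ^ p = 1 → w ∉ S → w ^ n ∈ S → w ^ n = 1 := by
    intro S w n hwp hw hn
    by_cases hd : (p : ℤ) ∣ n
    · obtain ⟨k, rfl⟩ := hd
      rw [zpow_mul, zpow_natCast, hwp, one_zpow]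
    · refine absurd ?_ hw
      have hco : IsCoprime n (p : ℤ) := by
        refine Int.isCoprime_iff_nat_coprime.2 ?_
        rw [Int.natAbs_natCast, Nat.coprime_comm, hp.coprime_iff_not_dvd]
        exact fun h => hd (Int.natCast_dvd.2 h)
      obtain ⟨a, b, hab'⟩ := hco
      have e : w = (w ^ n) ^ a := by
        conv_lhs => rw [← zpow_one w, ← hab', zpow_add, mul_comm b, zpow_mul w (p : ℤ), zpow_natCast,
          hwp, one_zpow, mul_one, mul_comm a, zpow_mul]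
      rw [e]; exact S.zpow_mem hn a
  have hgood : ∀ g : G, ∃ x : ℤ, ∀ h : G, ⁅g, h⁆ * (ψ h ^ x)⁻¹ ∈ Subgroup.zpowers (ψ g) := by
    intro g
    set Q := Subgroup.zpowers (ψ g) with hQ
    have hex : ∀ h, ∃ x : ℤ, ⁅g, h⁆ * (ψ h ^ x)⁻¹ ∈ Q := fun h => by
      obtain ⟨i, j, hij⟩ := hspan g h
      exact ⟨j, i, by rw [hij, mul_inv_cancel_right]⟩
    obtain ⟨h0, hh0⟩ := hfree g g
    obtain ⟨x, hx⟩ := hex h0
    refine ⟨x, ?_⟩
    have hh0' : ψ h0 ∉ Q := fun ⟨i, hi⟩ => hh0 i 0 (by rw [zpow_zero, mul_one]; exact hi.symm)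
    let D : ℤ → (G →* G) := fun z => MonoidHom.mk' (fun h => ⁅g, h⁆ * (ψ h ^ z)⁻¹) fun h k => by
      rw [hbi, map_mul, Commute.mul_zpow (hψc h (ψ k)), mul_inv_rev]
      have hc1 : Commute (ψ k ^ z)⁻¹ (ψ h ^ z)⁻¹ := (Commute.zpow_zpow (hψc k (ψ h)) z z).inv_inv
      rw [hc1.eq]
      simp only [mul_assoc]
      rw [← mul_assoc ⁅g, k⁆ (ψ h ^ z)⁻¹, ← hcc g k (ψ h ^ z)⁻¹]
      simp only [mul_assoc]
    let S2 : Subgroup G := Q ⊔ Subgroup.zpowers (ψ h0)
    have hout : ∀ h, ψ h ∉ S2 → D x h ∈ Q := by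
      intro h hh
      obtain ⟨y, hy⟩ := hex h
      obtain ⟨z, hz⟩ := hex (h0 * h)
      have hz' : D z h0 * D z h ∈ Q := by rw [← map_mul]; exact hz
      have e : ∀ (w : ℤ) (k : G) (v : ℤ), ⁅g, k⁆ * (ψ k ^ v)⁻¹ ∈ Q →
          (D w k)⁻¹ * (⁅g, k⁆ * (ψ k ^ v)⁻¹) = ψ k ^ (w - v) := by
        intro w k v _
        show (⁅g, k⁆ * (ψ k ^ w)⁻¹)⁻¹ * (⁅g, k⁆ * (ψ k ^ v)⁻¹) = _
        rw [mul_inv_rev, inv_inv, zpow_sub]
        group
      have h1 : ψ h0 ^ (z - x) ∈ Q ⊔ Subgroup.zpowers (ψ h) ∧ ψ h ^ (z - y) ∈ S2 := by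
        constructor
        · rw [← e z h0 x hx]
          have : (D z h0)⁻¹ = D z h * (D z h0 * D z h)⁻¹ := by group
          rw [this]
          refine Subgroup.mul_mem _ (Subgroup.mul_mem _ ?_ (Subgroup.mem_sup_left (Q.inv_mem hz')))
            (Subgroup.mem_sup_left hx)
          show ⁅g, h⁆ * (ψ h ^ z)⁻¹ ∈ _
          rw [show ⁅g, h⁆ * (ψ h ^ z)⁻¹ = (⁅g, h⁆ * (ψ h ^ y)⁻¹) * (ψ h ^ y * (ψ h ^ z)⁻¹) by group]
          exact Subgroup.mul_mem _ (Subgroup.mem_sup_left hy) (Subgroup.mem_sup_right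
            ((Subgroup.zpowers (ψ h)).mul_mem ⟨y, rfl⟩ ((Subgroup.zpowers (ψ h)).inv_mem ⟨z, rfl⟩)))
        · rw [← e z h y hy]
          have : (D z h)⁻¹ = (D z h0 * D z h)⁻¹ * D z h0 := by group
          rw [this]
          refine Subgroup.mul_mem _ (Subgroup.mul_mem _ (Subgroup.mem_sup_left (Q.inv_mem hz')) ?_)
            (Subgroup.mem_sup_left hy)
          show ⁅g, h0⁆ * (ψ h0 ^ z)⁻¹ ∈ _
          rw [show ⁅g, h0⁆ * (ψ h0 ^ z)⁻¹ =
            (⁅g, h0⁆ * (ψ h0 ^ x)⁻¹) * (ψ h0 ^ x * (ψ h0 ^ z)⁻¹) by group]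
          exact Subgroup.mul_mem _ (Subgroup.mem_sup_left hx) (Subgroup.mem_sup_right
            ((Subgroup.zpowers (ψ h0)).mul_mem ⟨x, rfl⟩ ((Subgroup.zpowers (ψ h0)).inv_mem ⟨z, rfl⟩)))
      have hh0h : ψ h0 ∉ Q ⊔ Subgroup.zpowers (ψ h) := by
        intro hm
        haveI : Q.Normal := ⟨fun q hq v => by
          obtain ⟨i, rfl⟩ := hq
          exact ⟨i, by rw [← (Commute.zpow_left (hψc g v) i).eq, mul_inv_cancel_right]⟩⟩
        obtain ⟨q, hq, w, ⟨i, rfl⟩, hqw⟩ := Subgroup.mem_sup_of_normal_left.1 hm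
        simp only at hqw
        have hmem : ψ h ^ i ∈ S2 := by
          rw [show ψ h ^ i = q⁻¹ * (q * ψ h ^ i) by group, hqw]
          exact S2.mul_mem (Subgroup.mem_sup_left (Q.inv_mem hq))
            (Subgroup.mem_sup_right (Subgroup.mem_zpowers _))
        rw [hdvd _ _ _ (hψp h) hh hmem, mul_one] at hqw
        exact hh0' (hqw ▸ hq)
      have hzx := hdvd _ _ _ (hψp h0) hh0h h1.1
      have hzy := hdvd _ _ _ (hψp h) hh h1.2
      by_cases hdz : (p : ℤ) ∣ z - x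
      · have hxy : ψ h ^ x = ψ h ^ y := by
          obtain ⟨k, hk⟩ := hdz
          rw [show x = y + ((z - y) + (p : ℤ) * -k) by linarith, zpow_add, zpow_add, hzy, zpow_mul,
            zpow_natCast, hψp, one_zpow, mul_one, mul_one]
        show ⁅g, h⁆ * (ψ h ^ x)⁻¹ ∈ Q
        rw [hxy]; exact hy
      · refine absurd ?_ hh0'
        have hco : IsCoprime (z - x) (p : ℤ) := by
          refine Int.isCoprime_iff_nat_coprime.2 ?_
          rw [Int.natAbs_natCast, Nat.coprime_comm, hp.coprime_iff_not_dvd]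
          exact fun h => hdz (Int.natCast_dvd.2 h)
        obtain ⟨a, b, hab'⟩ := hco
        have e1 : ψ h0 = 1 := by
          rw [← zpow_one (ψ h0), ← hab', zpow_add, mul_comm a, mul_comm b, zpow_mul, zpow_mul, hzx,
            zpow_natCast, hψp, one_zpow, one_zpow, mul_one]
        rw [e1]; exact Q.one_mem
    intro h
    by_cases hh : ψ h ∈ S2
    · obtain ⟨l, hl⟩ := hfree g h0
      have hlS : ψ l ∉ S2 := by
        intro hm
        haveI : Q.Normal := ⟨fun q hq v => by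
          obtain ⟨i, rfl⟩ := hq
          exact ⟨i, by rw [← (Commute.zpow_left (hψc g v) i).eq, mul_inv_cancel_right]⟩⟩
        obtain ⟨_, ⟨i, rfl⟩, _, ⟨j, rfl⟩, hij⟩ := Subgroup.mem_sup_of_normal_left.1 hm
        exact hl i j hij.symm
      have hhl : ψ (h * l) ∉ S2 := fun hm => hlS (by
        rw [map_mul] at hm
        exact (S2.mul_mem_cancel_left hh).1 hm)
      show D x h ∈ Q
      rw [show h = h * l * l⁻¹ by group, map_mul, map_inv]
      exact Q.mul_mem (hout _ hhl) (Q.inv_mem (hout _ hlS))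
    · exact hout h hh
  obtain ⟨g1, -, hg1⟩ := SetLike.exists_of_lt hne.lt_top
  obtain ⟨x1, hx1⟩ := hgood g1
  set g := g1 * a0 ^ x1 with hg
  have hψg : ψ g = ψ g1 := by rw [hg, map_mul, hψA _ (A.zpow_mem ha0A x1), mul_one]
  have hψg1 : ψ g ≠ 1 := fun h => hg1 (hψker g1 (hψg ▸ h))
  have hgh : ∀ h, ⁅g, h⁆ ∈ Subgroup.zpowers (ψ g) := by
    intro h
    let R : G →* G := MonoidHom.mk' (fun c => ⁅c, h⁆) fun c d => by
      rw [comm_mul_left, hcc d h c, mul_inv_cancel_right, ← hcc c h]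
    have e1 : ⁅a0, h⁆ = (ψ h)⁻¹ := by
      show _ = ⁅h, a0⁆⁻¹
      rw [commutatorElement_inv]
    have e : ⁅g, h⁆ = ⁅g1, h⁆ * (ψ h ^ x1)⁻¹ := by
      have := map_mul R g1 (a0 ^ x1)
      rw [map_zpow] at this
      rw [show (R a0) = (ψ h)⁻¹ from e1, inv_zpow] at this
      exact this
    rw [e, hψg]
    exact hx1 h
  let K : G →* G := MonoidHom.mk' (fun h => ⁅g, h⁆) fun h k => hbi g h k
  have hKker : ∀ h, h ∈ K.ker ↔ g * h = h * g := fun h =>
    MonoidHom.mem_ker.trans commutatorElement_eq_one_iff_mul_comm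
  have ha0K : a0 ∉ K.ker := fun h => hψg1 (by
    show ⁅g, a0⁆ = 1
    exact MonoidHom.mem_ker.1 h)
  have hKi : K.ker.index = p := by
    rw [Subgroup.index_ker]
    have hle : K.range ≤ Subgroup.zpowers (ψ g) := by
      rintro _ ⟨h, rfl⟩
      exact hgh h
    have hord : orderOf (ψ g) = p := by
      haveI := Fact.mk hp
      exact orderOf_eq_prime (hψp g) hψg1
    have hd : Nat.card K.range ∣ p := by
      have := Subgroup.card_dvd_of_le hle
      rwa [Nat.card_zpowers, hord] at this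
    refine (hp.eq_one_or_self_of_dvd _ hd).resolve_left fun h1 => ha0K ?_
    have hb := Subgroup.eq_bot_of_card_eq _ h1
    exact MonoidHom.mem_ker.2 (Subgroup.mem_bot.1 (hb ▸ MonoidHom.mem_range.2 ⟨a0, rfl⟩))
  have hKA : ∀ a ∈ A, a ∈ K.ker → a ∈ Subgroup.center G := by
    intro a ha haK
    rw [← hZa] at ha
    obtain ⟨z, hz, w, ⟨i, rfl⟩, rfl⟩ := Subgroup.mem_sup_of_normal_left.1 ha
    have h1 : K (a0 ^ i) = 1 := by
      have h2 : K (z * a0 ^ i) = 1 := haK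
      rwa [map_mul, show K z = 1 from commutatorElement_eq_one_iff_mul_comm.2
        (Subgroup.mem_center_iff.1 hz g), one_mul] at h2
    rw [map_zpow] at h1
    have hpd : (p : ℤ) ∣ i := by
      haveI := Fact.mk hp
      rw [← orderOf_eq_prime (hψp g) hψg1]
      exact orderOf_dvd_iff_zpow_eq_one.2 h1
    obtain ⟨k, rfl⟩ := hpd
    refine (Subgroup.center G).mul_mem hz ?_
    show a0 ^ ((p : ℤ) * k) ∈ _
    rw [zpow_mul, zpow_natCast]
    refine (Subgroup.center G).zpow_mem (Subgroup.mem_center_iff.2 fun x => ?_) k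
    refine commutatorElement_eq_one_iff_mul_comm.1 ?_
    let r : A →* G := MonoidHom.mk' (fun b => ⁅x, (b : G)⁆) fun b c => hright x b c b.2 c.2
    exact (map_pow r ⟨a0, ha0A⟩ p).trans (hkerp x a0 ha0A)
  refine ⟨K.ker, inferInstance, fun h hh k hk => ?_, hKi⟩
  -- two elements of the new subgroup commute
  have hcase2 : ∀ u v : G, u ∈ K.ker → v ∈ K.ker → ψ v ∈ Subgroup.zpowers (ψ u) → u * v = v * u := by
    intro u v hu hv ⟨i, hi⟩
    have hw : (u ^ i)⁻¹ * v ∈ A := hψker _ (by rw [map_mul, map_inv, map_zpow]; simp only at hi; rw [hi]; group)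
    have hc := hKA _ hw (K.ker.mul_mem (K.ker.inv_mem (K.ker.zpow_mem hu i)) hv)
    have hcu := Subgroup.mem_center_iff.1 hc u
    calc u * v = u ^ i * (u * ((u ^ i)⁻¹ * v)) := by group
      _ = u ^ i * ((u ^ i)⁻¹ * v * u) := by rw [hcu]
      _ = v * u := by group
  have hQsymm : ∀ u v : G, ψ u ∈ Subgroup.zpowers (ψ v) → ψ u ≠ 1 →
      ψ v ∈ Subgroup.zpowers (ψ u) := by
    intro u v hu hu1
    by_contra hv
    obtain ⟨i, hi⟩ := hu
    simp only at hi
    exact hu1 (hi ▸ hdvd _ _ i (hψp v) hv (hi ▸ Subgroup.mem_zpowers _))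
  by_cases hh1 : ψ h = 1
  · exact (Subgroup.mem_center_iff.1 (hKA h (hψker h hh1) hh) k).symm
  by_cases hhQ : ψ h ∈ Subgroup.zpowers (ψ g)
  · have hgK : g ∈ K.ker := (hKker g).2 rfl
    obtain ⟨i, hi⟩ := hhQ
    simp only at hi
    have hw : (g ^ i)⁻¹ * h ∈ A := hψker _ (by rw [map_mul, map_inv, map_zpow, hi]; group)
    have hc := hKA _ hw (K.ker.mul_mem (K.ker.inv_mem (K.ker.zpow_mem hgK i)) hh)
    have hck := Subgroup.mem_center_iff.1 hc k
    have hgk : Commute (g ^ i) k := Commute.zpow_left ((hKker k).1 hk) i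
    calc h * k = g ^ i * ((g ^ i)⁻¹ * h * k) := by group
      _ = g ^ i * (k * ((g ^ i)⁻¹ * h)) := by rw [hck]
      _ = g ^ i * k * ((g ^ i)⁻¹ * h) := by group
      _ = k * g ^ i * ((g ^ i)⁻¹ * h) := by rw [hgk.eq]
      _ = k * h := by group
  have hline : ∀ u, u ∈ K.ker → ψ u ∉ Subgroup.zpowers (ψ g) → ψ u ≠ 1 →
      ∀ v, ⁅u, v⁆ ∈ Subgroup.zpowers (ψ u) := by
    intro u hu huQ hu1 v
    obtain ⟨y, hy⟩ := hgood u
    have hgu : ⁅u, g⁆ = 1 := commutatorElement_eq_one_iff_mul_comm.2 ((hKker u).1 hu).symm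
    have h1 := hy g
    rw [hgu, one_mul, inv_mem_iff] at h1
    have h2 := hdvd _ _ y (hψp g) (fun hm => huQ (hQsymm g u hm hψg1)) h1
    by_cases hd : (p : ℤ) ∣ y
    · obtain ⟨c, rfl⟩ := hd
      have := hy v
      rwa [zpow_mul, zpow_natCast, hψp, one_zpow, inv_one, mul_one] at this
    · haveI := Fact.mk hp
      exact absurd (orderOf_dvd_iff_zpow_eq_one.2 h2) (by rwa [orderOf_eq_prime (hψp g) hψg1])
  by_cases hkh : ψ k ∈ Subgroup.zpowers (ψ h)
  · exact hcase2 h k hh hk hkh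
  have hk1 : ψ k ≠ 1 := fun h' => hkh (by rw [h']; exact Subgroup.one_mem _)
  by_cases hkQ : ψ k ∈ Subgroup.zpowers (ψ g)
  · obtain ⟨i, hi⟩ := hkQ
    simp only at hi
    have hgK : g ∈ K.ker := (hKker g).2 rfl
    have hw : (g ^ i)⁻¹ * k ∈ A := hψker _ (by rw [map_mul, map_inv, map_zpow, hi]; group)
    have hc := hKA _ hw (K.ker.mul_mem (K.ker.inv_mem (K.ker.zpow_mem hgK i)) hk)
    have hch := Subgroup.mem_center_iff.1 hc h
    have hgh' : Commute (g ^ i) h := Commute.zpow_left ((hKker h).1 hh) i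
    calc h * k = h * g ^ i * ((g ^ i)⁻¹ * k) := by group
      _ = g ^ i * h * ((g ^ i)⁻¹ * k) := by rw [hgh'.eq]
      _ = g ^ i * (h * ((g ^ i)⁻¹ * k)) := by group
      _ = g ^ i * ((g ^ i)⁻¹ * k * h) := by rw [hch]
      _ = k * h := by group
  rw [← commutatorElement_eq_one_iff_mul_comm]
  obtain ⟨i, hi⟩ := hline k hk hkQ hk1 h
  simp only at hi
  have hinh : ψ k ^ i ∈ Subgroup.zpowers (ψ h) := by
    rw [hi, ← commutatorElement_inv h k]
    exact Subgroup.inv_mem _ (hline h hh hhQ hh1 k)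
  have := hdvd _ _ i (hψp k) hkh hinh
  rw [hi, ← commutatorElement_inv h k, inv_eq_one] at this
  exact this

end GroupPart

/-- What the degree hypothesis gives for a linear character of an abelian subgroup containing the
commutator subgroup. -/
theorem keyProp_of_degrees {p : ℕ} (hp : p.Prime)
    (hcd : ∀ χ : Cfsg.IrrCharacter G, Cfsg.charDegree (χ : G → ℂ) = 1 ∨
      Cfsg.charDegree (χ : G → ℂ) = p)
    (A : Subgroup G) (hab : ∀ a ∈ A, ∀ b ∈ A, a * b = b * a) (hGA : ∀ g h : G, ⁅g, h⁆ ∈ A) :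
    KeyProp A p hGA := by
  classical
  haveI := Fintype.ofFinite G
  intro lam
  haveI hAn : A.Normal := ⟨fun x hx g => by
    rw [show g * x * g⁻¹ = ⁅g, x⁆ * x by simp [commutatorElement_def, mul_assoc]]
    exact A.mul_mem (hGA g x) hx⟩
  let l : Cfsg.IrrCharacter A := ⟨fun a => (lam a : ℂ), H26.isIrrCharacter_hom lam⟩
  set H := H44.inertia A l.1 with hH
  have hlA : A ≤ H := H44.le_inertia A (H26.irr_isClassFunction l)
  have hmem : ∀ g : G, g ∈ H ↔ ∀ a : A, lam ⟨⁅g, (a : G)⁆, hGA g a⟩ = 1 := by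
    intro g
    rw [hH, H44.mem_inertia, funext_iff]
    refine forall_congr' fun a => ?_
    show (lam _ : ℂ) = (lam a : ℂ) ↔ _
    rw [Units.val_inj, ← mul_inv_eq_one, ← map_inv, ← map_mul]
    congr! 2
  refine ⟨H, hlA, hmem, ?_⟩
  have hl1 : Cfsg.charDegree (l : A → ℂ) = 1 := by
    simp [Cfsg.charDegree, l]
  have hidx : H.index = 1 ∨ H.index = p := by
    obtain ⟨χ, hχ⟩ := H44.exists_irr_over A l
    have h1 := H44.degree_mul_index_inertia_dvd A χ l hχ
    rw [hl1, mul_one] at h1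
    rcases hcd χ with h | h
    · exact Or.inl (Nat.dvd_one.1 (h ▸ h1))
    · exact hp.eq_one_or_self_of_dvd _ (h ▸ h1)
  rcases hidx with h | h
  · exact Or.inl (Subgroup.index_eq_one.1 h)
  refine Or.inr ⟨h, ?_⟩
  haveI hHn : H.Normal := ⟨fun x hx g => by
    rw [show g * x * g⁻¹ = ⁅g, x⁆ * x by simp [commutatorElement_def, mul_assoc]]
    exact H.mul_mem (hlA (hGA g x)) hx⟩
  -- a constituent over `lam` inside the inertia group
  let A' := A.subgroupOf H
  let e : A' ≃* A := Subgroup.subgroupOfEquivOfLe hlA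
  let l' : Cfsg.IrrCharacter A' :=
    ⟨fun a => l.1 (e a), H56.isIrrCharacter_comp_equiv l.2 e⟩
  obtain ⟨θ, hθ⟩ := H44.exists_irr_over A' l'
  have hinv : ∀ x : H, H56.twist A' l'.1 x = l'.1 := by
    intro x
    funext a
    have h1 : H56.twist A l.1 (x : G) = l.1 := H44.mem_inertia A |>.1 x.2
    have h2 := congrFun h1 (e a)
    show l.1 (e _) = l.1 (e a)
    refine Eq.trans ?_ h2
    show l.1 _ = l.1 _
    congr 1
  obtain ⟨m, hm0, hres, -, hθ1⟩ := H56.restrict_eq_smul_of_invariant A' l'.2 hinv θ.2 hθ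
  have hl'1 : l'.1 1 = 1 := by simp [l', l]
  rw [hl'1, mul_one] at hθ1
  have hθd : Cfsg.charDegree (θ : H → ℂ) = m := by
    rw [← Nat.cast_inj (R := ℂ), H44.cast_charDegree, hθ1]
  obtain ⟨χ, hχ⟩ := H44.exists_irr_over H θ
  obtain ⟨k, hk, hkd⟩ := H44.exists_degree_eq_index_inertia H χ θ hχ
  by_cases hm1 : m = 1
  · intro a ha b hb
    obtain ⟨f, hf⟩ := H26.exists_hom_of_isCharacter_one (H26.irr_isCharacter θ)
      (by rw [hθ1, hm1, Nat.cast_one])
    have hc : f ⁅(⟨a, ha⟩ : H), ⟨b, hb⟩⁆ = 1 := by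
      rw [map_commutatorElement, commutatorElement_eq_one_iff_mul_comm, mul_comm]
    have hc' := congrArg (fun u : ℂˣ => (u : ℂ)) hc
    simp only [Units.val_one] at hc'
    rw [hf] at hc'
    let c : A' := ⟨⁅(⟨a, ha⟩ : H), ⟨b, hb⟩⁆, hGA a b⟩
    have := congrFun hres c
    rw [show θ.1 (c : H) = 1 from hc', hm1] at this
    simp only [Nat.cast_one, one_smul] at this
    exact Units.ext this.symm
  exfalso
  have hmp : m = p := by
    have hd : m ∣ Cfsg.charDegree (χ : G → ℂ) := by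
      rw [hkd, hθd, ← mul_assoc]; exact dvd_mul_left _ _
    rcases hcd χ with h1 | h1 <;> rw [h1] at hd
    · exact absurd (Nat.dvd_one.1 hd) hm1
    · exact (hp.eq_one_or_self_of_dvd _ hd).resolve_left hm1
  have hkp : k * (H44.inertia H θ.1).index = 1 := by
    rw [hθd, hmp] at hkd
    rcases hcd χ with h1 | h1 <;> rw [h1] at hkd
    · exact absurd (Nat.eq_one_of_mul_eq_one_left (Nat.eq_one_of_mul_eq_one_left hkd.symm)) hp.ne_one
    · refine Nat.eq_of_mul_eq_mul_right hp.pos (?_ : _ = 1 * p)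
      rw [one_mul, mul_assoc]; exact hkd.symm
  have hIH : ∀ g : G, H56.twist H θ.1 g = θ.1 := by
    intro g
    rw [← H44.mem_inertia, Subgroup.index_eq_one.1 (Nat.eq_one_of_mul_eq_one_left hkp)]
    trivial
  obtain ⟨k', -, hres', hk', -⟩ := H56.restrict_eq_smul_of_invariant H θ.2 hIH χ.2 hχ
  have hHtop : H = ⊤ := by
    refine eq_top_iff.2 fun g _ => ?_
    rw [hH, H44.mem_inertia]
    funext a
    have h1 : θ.1 ⟨g * (a : G) * g⁻¹, hHn.conj_mem _ (hlA a.2) g⟩ = θ.1 ⟨a, hlA a.2⟩ :=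
      congrFun (hIH g) ⟨a, hlA a.2⟩
    have h2 := congrFun hres (e.symm ⟨g * (a : G) * g⁻¹, hAn.conj_mem _ a.2 g⟩)
    have h3 := congrFun hres (e.symm a)
    simp only [Pi.smul_apply, smul_eq_mul] at h2 h3
    have h4 : (m : ℂ) * l.1 ⟨g * (a : G) * g⁻¹, hAn.conj_mem _ a.2 g⟩ = (m : ℂ) * l.1 a := by
      rw [show l.1 ⟨g * (a : G) * g⁻¹, hAn.conj_mem _ a.2 g⟩ =
          l'.1 (e.symm ⟨g * (a : G) * g⁻¹, hAn.conj_mem _ a.2 g⟩) by simp [l'],
        show l.1 a = l'.1 (e.symm a) by simp [l'], ← h2, ← h3]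
      exact h1
    exact mul_left_cancel₀ (Nat.cast_ne_zero.2 hm0.ne') h4
  exact hp.ne_one (by rw [← h, hHtop, Subgroup.index_top])

/-- The square of the degree is at most the index of the centre. -/
theorem degree_sq_le_index_center {n : ℕ} (ρ : Representation ℂ G (Fin n → ℂ)) [ρ.IsIrreducible] :
    n ^ 2 ≤ (Subgroup.center G).index := by
  classical
  haveI := Fintype.ofFinite G
  have hnorm : ∀ z ∈ Subgroup.center G, ρ.character z * (starRingEnd ℂ) (ρ.character z) = (n : ℂ) ^ 2 := by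
    intro z hz
    have hcomm : ∀ x, ρ z ∘ₗ ρ x = ρ x ∘ₗ ρ z := fun x => by
      simp only [← Module.End.mul_eq_comp, ← map_mul, Subgroup.mem_center_iff.1 hz x]
    have hinv : ∀ x, ρ z⁻¹ ∘ₗ ρ x = ρ x ∘ₗ ρ z⁻¹ := fun x => by
      simp only [← Module.End.mul_eq_comp, ← map_mul,
        Subgroup.mem_center_iff.1 ((Subgroup.center G).inv_mem hz) x]
    obtain ⟨c, hc⟩ : ∃ c : ℂ, ρ z = c • (LinearMap.id : (Fin n → ℂ) →ₗ[ℂ] (Fin n → ℂ)) :=
      ⟨_, H25.eq_smul_id_of_comm ρ (ρ z) hcomm⟩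
    obtain ⟨d, hd⟩ : ∃ d : ℂ, ρ z⁻¹ = d • (LinearMap.id : (Fin n → ℂ) →ₗ[ℂ] (Fin n → ℂ)) :=
      ⟨_, H25.eq_smul_id_of_comm ρ (ρ z⁻¹) hinv⟩
    rw [← H26.char_inv_eq_conj ρ, Representation.character, Representation.character, hc, hd,
      map_smul, map_smul, LinearMap.trace_id, Module.finrank_fin_fun, smul_eq_mul, smul_eq_mul]
    have h := map_mul ρ z z⁻¹
    rw [mul_inv_cancel, map_one, hc, hd] at h
    have h' := congrArg (LinearMap.trace ℂ (Fin n → ℂ)) h
    rw [LinearMap.trace_one, Module.finrank_fin_fun] at h'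
    simp [Module.End.mul_eq_comp, LinearMap.comp_smul, LinearMap.smul_comp, smul_smul,
      LinearMap.trace_id] at h'
    linear_combination (-(n : ℂ)) * h'
  have hsum := H25.sum_char_mul_char_inv ρ
  have hre : ((Nat.card (Subgroup.center G) * n ^ 2 : ℕ) : ℝ) ≤ (Nat.card G : ℝ) := by
    have e : ∀ g, (ρ.character g * ρ.character g⁻¹).re = Complex.normSq (ρ.character g) := fun g => by
      rw [H26.char_inv_eq_conj ρ, Complex.mul_conj, Complex.ofReal_re]
    have h := congrArg Complex.re hsum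
    rw [Complex.re_sum, Finset.sum_congr rfl fun g _ => e g, Complex.natCast_re] at h
    rw [← h]
    refine le_trans ?_ (Finset.sum_le_univ_sum_of_nonneg
      (s := Finset.univ.filter (· ∈ Subgroup.center G)) fun g => Complex.normSq_nonneg _)
    rw [Finset.sum_congr rfl fun g hg => show Complex.normSq (ρ.character g) = (n : ℝ) ^ 2 from ?_,
      Finset.sum_const, nsmul_eq_mul, ← Fintype.card_subtype, ← Nat.card_eq_fintype_card]
    · push_cast; rfl
    · have h1 := hnorm g (Finset.mem_filter.1 hg).2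
      rw [Complex.mul_conj] at h1
      exact_mod_cast h1
  have h3 : Nat.card (Subgroup.center G) * n ^ 2 ≤ Nat.card G := by exact_mod_cast hre
  rw [← (Subgroup.center G).card_mul_index] at h3
  exact Nat.le_of_mul_le_mul_left h3 Nat.card_pos

/-- Isaacs 12.11. -/
theorem degrees_one_prime_iff (hG : ∃ a b : G, a * b ≠ b * a) (p : ℕ) (hp : p.Prime) :
    ((∀ χ : Cfsg.IrrCharacter G, Cfsg.charDegree (χ : G → ℂ) = 1 ∨
        Cfsg.charDegree (χ : G → ℂ) = p) ∧
      ∃ χ : Cfsg.IrrCharacter G, Cfsg.charDegree (χ : G → ℂ) = p) ↔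
    ((∃ A : Subgroup G, A.Normal ∧ (∀ a ∈ A, ∀ b ∈ A, a * b = b * a) ∧ A.index = p) ∨
      (Subgroup.center G).index = p ^ 3) := by
  classical
  haveI := Fintype.ofFinite G
  constructor
  · rintro ⟨hcd, -⟩
    have hder := H25.commutator_comm_of_two_degrees hcd hp.ne_zero
    obtain ⟨A, ⟨hA1, hab⟩, hmax⟩ := Set.Finite.exists_maximalFor id
      {A : Subgroup G | commutator G ≤ A ∧ ∀ a ∈ A, ∀ b ∈ A, a * b = b * a} (Set.toFinite _)
      ⟨_, le_rfl, hder⟩
    have hGA : ∀ g h : G, ⁅g, h⁆ ∈ A := fun g h =>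
      hA1 (Subgroup.commutator_mem_commutator (Subgroup.mem_top g) (Subgroup.mem_top h))
    have hC : ∀ g : G, (∀ a ∈ A, g * a = a * g) → g ∈ A := by
      intro g hg
      have hab' : ∀ x ∈ Subgroup.closure ((A : Set G) ∪ {g}), ∀ y ∈ Subgroup.closure ((A : Set G) ∪ {g}),
          x * y = y * x := by
        haveI : IsMulCommutative (Subgroup.closure ((A : Set G) ∪ {g})) :=
          Subgroup.isMulCommutative_closure (by
            rintro x (hx | rfl) y (hy | rfl)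
            · exact hab x hx y hy
            · exact (hg x hx).symm
            · exact hg y hy
            · rfl)
        exact fun x hx y hy => congrArg Subtype.val (mul_comm' (⟨x, hx⟩ : Subgroup.closure ((A : Set G) ∪ {g})) ⟨y, hy⟩)
      have hle : A ≤ Subgroup.closure ((A : Set G) ∪ {g}) := fun a ha =>
        Subgroup.subset_closure (Or.inl ha)
      exact hmax ⟨hA1.trans hle, hab'⟩ hle (Subgroup.subset_closure (Or.inr rfl))
    refine group_part hp hab hC hGA ?_ (keyProp_of_degrees hp hcd A hab hGA)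
    rintro rfl
    obtain ⟨a, b, h⟩ := hG
    exact h (hab a trivial b trivial)
  · intro h
    have hcd : ∀ χ : Cfsg.IrrCharacter G, Cfsg.charDegree (χ : G → ℂ) = 1 ∨
        Cfsg.charDegree (χ : G → ℂ) = p := by
      intro χ
      obtain ⟨n, ρ, hρ, e⟩ := χ.2
      haveI := hρ
      have hn : Cfsg.charDegree (χ : G → ℂ) = n := by simp [Cfsg.charDegree, ← e]
      rw [hn]
      rcases h with ⟨A, hA, hab, hi⟩ | hi
      · haveI := hA
        have h1 := S0169.result ρ A hab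
        rw [Module.finrank_fin_fun, hi] at h1
        exact hp.eq_one_or_self_of_dvd _ h1
      · have h1 := H26.finrank_dvd_index_center ρ
        rw [Module.finrank_fin_fun, hi, Nat.dvd_prime_pow hp] at h1
        obtain ⟨i, hi3, rfl⟩ := h1
        have h2 : (p ^ i) ^ 2 ≤ p ^ 3 := hi ▸ degree_sq_le_index_center ρ
        rw [← pow_mul, Nat.pow_le_pow_iff_right hp.one_lt] at h2
        have hi1 : i ≤ 1 := by omega
        interval_cases i
        · exact Or.inl (pow_zero p)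
        · exact Or.inr (pow_one p)
    refine ⟨hcd, ?_⟩
    by_contra hcon
    push Not at hcon
    obtain ⟨a, b, hab⟩ := hG
    refine hab (H26.comm_iff_forall_irr_one.2 (fun χ => ?_) a b)
    rw [← H44.cast_charDegree, (hcd χ).resolve_right (hcon χ), Nat.cast_one]

end Cfsg.Agent.H27.DegreeOneP
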