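import Cfsg.Agent.H43.Constituents
import Cfsg.Agent.H43.DetChar
import Cfsg.Agent.H26.CharLinear
import Cfsg.Agent.H27.SmallDegree
import Cfsg.Agent.H25.Faithful
import Cfsg.Agent.H25.Jordan
import Cfsg.Agent.H28.Q8.CharTools
import Cfsg.Agent.H19.Cores

/-!
# Linear groups of degree less than `2p` with nonabelian Sylow `p`-subgroups
-/

set_option autoImplicit false
set_option linter.unusedSectionVars false

namespace Cfsg.Agent.H27.TwoP

open Cfsg
open scoped commutatorElement

section General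

variable {G : Type*} [Group G] [Fintype G]

theorem linear_commutator (η : IrrCharacter G) (h : charDegree η.1 = 1) (a b : G) :
    η.1 (a * b * a⁻¹ * b⁻¹) = η.1 1 := by
  obtain ⟨f, hf⟩ := H26.exists_hom_of_isCharacter_one (H26.irr_isCharacter η)
    (by rw [H43.irr_charDegree_spec, h, Nat.cast_one])
  rw [← hf, ← hf, map_mul, map_mul, map_mul, map_inv, map_inv, mul_inv_cancel_comm, mul_inv_cancel,
    map_one]

/-- If a faithful character has only linear constituents the group is abelian. -/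
theorem apply_commutator_eq {ψ : G → ℂ} (hψ : IsCharacter G ψ)
    (h : ∀ η : IrrCharacter G, H43.mult ψ η ≠ 0 → charDegree η.1 = 1) (a b : G) :
    ψ (a * b * a⁻¹ * b⁻¹) = ψ 1 := by
  rw [congrFun (H43.eq_sum_mult hψ) _, congrFun (H43.eq_sum_mult hψ) 1, Finset.sum_apply,
    Finset.sum_apply]
  refine Finset.sum_congr rfl fun η _ => ?_
  rw [Pi.smul_apply, Pi.smul_apply]
  by_cases hm : H43.mult ψ η = 0
  · rw [hm, Nat.cast_zero, zero_smul, zero_smul]
  · rw [linear_commutator η (h η hm)]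

theorem charDegree_eq_sum {ψ : G → ℂ} (hψ : IsCharacter G ψ) :
    charDegree ψ = ∑ η : IrrCharacter G, H43.mult ψ η * charDegree η.1 := by
  rw [charDegree, H43.apply_one_eq_sum_mult hψ]
  simp only [← Nat.cast_mul, ← Nat.cast_sum, Complex.natCast_re, Nat.floor_natCast]

theorem apply_one_cast {ψ : G → ℂ} (hψ : IsCharacter G ψ) : ψ 1 = (charDegree ψ : ℂ) := by
  rw [charDegree_eq_sum hψ, H43.apply_one_eq_sum_mult hψ, Nat.cast_sum]
  exact Finset.sum_congr rfl fun η _ => (Nat.cast_mul _ _).symm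

theorem charDegree_eq_one_of_lt {p : ℕ} [hp : Fact p.Prime] (hG : IsPGroup p G)
    (η : IrrCharacter G) (h : charDegree η.1 < p) : charDegree η.1 = 1 := by
  obtain ⟨k, hk⟩ := hG.exists_card_eq
  obtain ⟨j, -, hj⟩ := (Nat.dvd_prime_pow hp.out).1 (hk ▸ H43.irr_charDegree_dvd η)
  rcases Nat.eq_zero_or_pos j with rfl | hj0
  · rw [hj, pow_zero]
  · rw [hj] at h
    exact absurd h (not_lt.2 (Nat.le_self_pow hj0.ne' p))

theorem le_of_mult_ne_zero {ψ : G → ℂ} (hψ : IsCharacter G ψ) {η : IrrCharacter G}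
    (hη : H43.mult ψ η ≠ 0) : charDegree η.1 ≤ charDegree ψ := by
  rw [charDegree_eq_sum hψ]
  exact le_trans (Nat.le_mul_of_pos_left _ (Nat.pos_of_ne_zero hη))
    (Finset.single_le_sum (f := fun η => H43.mult ψ η * charDegree η.1) (fun _ _ => Nat.zero_le _)
      (Finset.mem_univ η))

end General

/-- A nonabelian `p`-group of degree less than `2p` and different from `p` has a central element
of order `p` with eigenvalues one and `ω`. -/
theorem exists_two_valued {P : Type*} [Group P] [Fintype P] {p : ℕ} [hp : Fact p.Prime]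
    (hP : IsPGroup p P) {ψ : P → ℂ} (hψ : IsCharacter P ψ) (hfaith : ∀ g, ψ g = ψ 1 → g = 1)
    (hna : ∃ a b : P, a * b ≠ b * a) (hn : charDegree ψ < 2 * p) :
    ∃ (z : P) (ω : ℂ), z ≠ 1 ∧ orderOf z = p ∧ ω ^ p = 1 ∧ ω ≠ 1 ∧ p ≤ charDegree ψ ∧
      ∀ j : ℕ, ψ (z ^ j) = (p : ℂ) * ω ^ j + ((charDegree ψ - p : ℕ) : ℂ) := by
  classical
  obtain ⟨a, b, hab⟩ := hna
  have hcomm1 : a * b * a⁻¹ * b⁻¹ ≠ 1 := fun h => hab (by
    rwa [mul_inv_eq_one, mul_inv_eq_iff_eq_mul] at h)
  obtain ⟨ξ, hξ, hξd⟩ : ∃ ξ : IrrCharacter P, H43.mult ψ ξ ≠ 0 ∧ charDegree ξ.1 ≠ 1 := by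
    by_contra h
    push Not at h
    exact hcomm1 (hfaith _ (apply_commutator_eq hψ h a b))
  have hge : p ≤ charDegree ξ.1 := by
    by_contra h
    exact hξd (charDegree_eq_one_of_lt hP ξ (by omega))
  have hle := le_of_mult_ne_zero hψ hξ
  have hsum := charDegree_eq_sum hψ
  rw [← Finset.add_sum_erase _ _ (Finset.mem_univ ξ)] at hsum
  have hmul : H43.mult ψ ξ = 1 := by
    have h1 : 1 ≤ H43.mult ψ ξ := Nat.one_le_iff_ne_zero.mpr hξ
    by_contra h2
    have h3 : 2 * p ≤ H43.mult ψ ξ * charDegree ξ.1 := Nat.mul_le_mul (by omega) hge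
    omega
  rw [hmul, one_mul] at hsum
  have hdp : charDegree ξ.1 = p := by
    obtain ⟨k, hk⟩ := hP.exists_card_eq
    obtain ⟨j, -, hj⟩ := (Nat.dvd_prime_pow hp.out).1 (hk ▸ H43.irr_charDegree_dvd ξ)
    rcases j with _ | _ | j
    · rw [hj, pow_zero] at hge; exact absurd hge (not_le.2 hp.out.one_lt)
    · rw [hj, pow_one]
    · exfalso
      have h1 : 2 * p ≤ p ^ 2 := by rw [pow_two]; exact Nat.mul_le_mul_right p hp.out.two_le
      have h2 : p ^ 2 ≤ p ^ (j + 1 + 1) := Nat.pow_le_pow_right hp.out.pos (by omega)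
      omega
  have hrest : ∀ η : IrrCharacter P, η ≠ ξ → H43.mult ψ η ≠ 0 → charDegree η.1 = 1 := by
    intro η hη hm
    refine charDegree_eq_one_of_lt hP η ?_
    have := Finset.single_le_sum (f := fun η : IrrCharacter P => H43.mult ψ η * charDegree η.1)
      (fun _ _ => Nat.zero_le _) (Finset.mem_erase.mpr ⟨hη, Finset.mem_univ η⟩)
    have h2 : charDegree η.1 ≤ H43.mult ψ η * charDegree η.1 :=
      Nat.le_mul_of_pos_left _ (Nat.pos_of_ne_zero hm)
    omega
  -- a central commutator of order `p`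
  have hcne : commutator P ≠ ⊥ := fun h => hcomm1 (by
    rw [← Subgroup.mem_bot, ← h, ← commutatorElement_def]
    exact Subgroup.commutator_mem_commutator (Subgroup.mem_top a) (Subgroup.mem_top b))
  obtain ⟨w, hw⟩ := exists_prime_orderOf_dvd_card' (G := (commutator P ⊓ Subgroup.center P :
      Subgroup P)) p (by
    have hne := inf_center_ne_bot hP (commutator P) hcne
    obtain ⟨k, hk⟩ := (hP.to_subgroup (commutator P ⊓ Subgroup.center P)).exists_card_eq
    rcases Nat.eq_zero_or_pos k with rfl | hk0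
    · exact absurd (Subgroup.card_eq_one.mp (by rw [hk, pow_zero])) hne
    · exact hk ▸ dvd_pow_self p hk0.ne')
  set z : P := w.1 with hz
  have hzo : orderOf z = p := by rw [hz, Subgroup.orderOf_coe, hw]
  have hz1 : z ≠ 1 := fun h => hp.out.one_lt.ne' (by rw [← hzo, h, orderOf_one])
  obtain ⟨ω, hω, hmulω⟩ := H28.Q8.irr_central ξ (Subgroup.mem_inf.mp w.2).2
  rw [hzo] at hω
  have hξj : ∀ j : ℕ, ξ.1 (z ^ j) = (p : ℂ) * ω ^ j := by
    intro j
    induction j with
    | zero => rw [pow_zero, pow_zero, mul_one, H43.irr_charDegree_spec, hdp]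
    | succ j ih => rw [pow_succ', hmulω, ih, pow_succ']; ring
  have hlin : ∀ η : IrrCharacter P, η ≠ ξ → H43.mult ψ η ≠ 0 → ∀ j : ℕ,
      η.1 (z ^ j) = η.1 1 := by
    intro η hη hm j
    obtain ⟨f, hf⟩ := H26.exists_hom_of_isCharacter_one (H26.irr_isCharacter η)
      (by rw [H43.irr_charDegree_spec, hrest η hη hm, Nat.cast_one])
    have hzf : f z = 1 := Abelianization.commutator_subset_ker f (Subgroup.mem_inf.mp w.2).1
    rw [← hf, ← hf, map_pow, hzf, one_pow, map_one]
  have hval : ∀ j : ℕ, ψ (z ^ j) = (p : ℂ) * ω ^ j + ((charDegree ψ - p : ℕ) : ℂ) := by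
    intro j
    rw [congrFun (H43.eq_sum_mult hψ) _, Finset.sum_apply,
      ← Finset.add_sum_erase _ _ (Finset.mem_univ ξ), Pi.smul_apply, hmul, Nat.cast_one, one_smul,
      hξj]
    congr 1
    rw [show charDegree ψ - p =
      ∑ η ∈ Finset.univ.erase ξ, H43.mult ψ η * charDegree η.1 by omega, Nat.cast_sum]
    refine Finset.sum_congr rfl fun η hη => ?_
    rw [Pi.smul_apply, smul_eq_mul, Nat.cast_mul]
    by_cases hm : H43.mult ψ η = 0
    · rw [hm, Nat.cast_zero, zero_mul, zero_mul]
    · rw [hlin η (Finset.mem_erase.mp hη).1 hm, H43.irr_charDegree_spec]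
  refine ⟨z, ω, hz1, hzo, hω, fun h => hz1 (hfaith z ?_), hdp ▸ hle, hval⟩
  have h1 := hval 1
  rw [pow_one, h, one_pow, mul_one, ← Nat.cast_add] at h1
  rw [h1, apply_one_cast hψ]
  congr 1
  omega

/-- An element with two eigenvalues `1` and `ω` commutes with its conjugates, `p ≥ 7`. -/
theorem commute_conj_of_two_valued {G : Type*} [Group G] [Fintype G] {n : ℕ}
    (ρ : Representation ℂ G (Fin n → ℂ)) (hinj : Function.Injective ρ) {p : ℕ} (hp : p.Prime)
    (h7 : 7 ≤ p) {z : G} (hz : orderOf z = p) {ω : ℂ} (hω : ω ^ p = 1) (hω1 : ω ≠ 1)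
    (hpn : p ≤ n) (hval : ∀ j : ℕ, ρ.character (z ^ j) = (p : ℂ) * ω ^ j + ((n - p : ℕ) : ℂ))
    (x : G) : Commute z (x * z * x⁻¹) := by
  classical
  haveI : NeZero p := ⟨hp.ne_zero⟩
  -- replace `z` by the power whose second eigenvalue is closest to one
  set ζ : ℂ := Complex.exp (2 * Real.pi * Complex.I / p) with hζ
  have hprim : IsPrimitiveRoot ω p := IsPrimitiveRoot.iff_orderOf.mpr
    (orderOf_eq_prime hω hω1 (hp := ⟨hp⟩))
  obtain ⟨k, -, hk⟩ := hprim.eq_pow_of_pow_eq_one
    (show ζ ^ p = 1 from (Complex.isPrimitiveRoot_exp p hp.ne_zero).pow_eq_one)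
  set y := z ^ k with hy
  obtain ⟨σ, e, he, hσ⟩ := H25.exists_unitary_form ρ
  have hσinj : Function.Injective σ := fun a b h => hinj (LinearMap.ext fun v =>
    e.injective (by rw [← he, ← he, h]))
  obtain ⟨b, μ, hb, hμ, hsum⟩ := H25.exists_eigenbasis ρ z
  rw [hz] at hμ
  -- the eigenvalues of `z` are `1` and `ω`
  have hpowb : ∀ (j : ℕ) i, ρ (z ^ j) (b i) = μ i ^ j • b i := by
    intro j i
    induction j with
    | zero => simp
    | succ j ih =>
      rw [pow_succ', map_mul, Module.End.mul_apply, ih, map_smul, hb, smul_smul, pow_succ]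
  have htr : ∀ j : ℕ, ρ.character (z ^ j) = ∑ i, μ i ^ j := by
    intro j
    show LinearMap.trace ℂ _ (ρ (z ^ j)) = _
    rw [LinearMap.trace_eq_matrix_trace ℂ b, Matrix.trace]
    refine Finset.sum_congr rfl fun i _ => ?_
    rw [Matrix.diag_apply, LinearMap.toMatrix_apply, hpowb, map_smul, Finsupp.smul_apply,
      Module.Basis.repr_self, Finsupp.single_eq_same, smul_eq_mul, mul_one]
  have hgeom : ∀ c : ℂ, c ^ p = 1 → c ≠ 1 → ∑ j ∈ Finset.range p, c ^ j = 0 := fun c h1 h2 => by
    rw [geom_sum_eq h2, h1, sub_self, zero_div]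
  have hμcases : ∀ i, μ i = 1 ∨ μ i = ω := by
    intro i
    by_contra hcon
    push Not at hcon
    set a := μ i with ha
    have ha0 : a ≠ 0 := fun h => by
      have := hμ i
      rw [← ha, h, zero_pow hp.ne_zero] at this
      exact zero_ne_one this
    have hap : a ^ p = 1 := hμ i
    have hL : ∑ j ∈ Finset.range p, a⁻¹ ^ j * ρ.character (z ^ j) = 0 := by
      simp only [hval, mul_add, Finset.sum_add_distrib]
      have h1 : ∑ j ∈ Finset.range p, a⁻¹ ^ j * ((p : ℂ) * ω ^ j) =
          (p : ℂ) * ∑ j ∈ Finset.range p, (a⁻¹ * ω) ^ j := by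
        rw [Finset.mul_sum]
        exact Finset.sum_congr rfl fun j _ => by rw [mul_pow]; ring
      rw [h1, hgeom _ (by rw [mul_pow, inv_pow, hap, inv_one, one_mul, hω])
          (fun h => hcon.2 ((inv_mul_eq_one₀ ha0).mp h)),
        ← Finset.sum_mul, hgeom _ (by rw [inv_pow, hap, inv_one])
          (fun h => hcon.1 (inv_eq_one.mp h)), mul_zero, zero_mul, add_zero]
    simp only [htr, Finset.mul_sum] at hL
    rw [Finset.sum_comm] at hL
    have hterm : ∀ i', ∑ j ∈ Finset.range p, a⁻¹ ^ j * μ i' ^ j =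
        if μ i' = a then (p : ℂ) else 0 := by
      intro i'
      simp only [← mul_pow]
      split_ifs with h
      · rw [h, inv_mul_cancel₀ ha0]; simp
      · exact hgeom _ (by rw [mul_pow, inv_pow, hap, inv_one, one_mul, hμ])
          fun h' => h ((inv_mul_eq_one₀ ha0).mp h').symm
    rw [Finset.sum_congr rfl fun i' _ => hterm i', Finset.sum_ite, Finset.sum_const_zero,
      add_zero, Finset.sum_const, nsmul_eq_mul, mul_eq_zero, Nat.cast_eq_zero,
      Finset.card_eq_zero] at hL
    rcases hL with hL | hL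
    · have hmem : i ∈ Finset.univ.filter (fun x => μ x = a) :=
        Finset.mem_filter.mpr ⟨Finset.mem_univ i, ha.symm⟩
      rw [hL] at hmem
      exact Finset.notMem_empty i hmem
    · exact hp.ne_zero (by exact_mod_cast hL)
  -- a scalar centring the two eigenvalues
  set c : ℂ := Complex.exp (-(Real.pi * Complex.I / p)) with hc
  have hcN : c ^ (2 * p) = 1 := by
    rw [hc, ← Complex.exp_nat_mul, show ((2 * p : ℕ) : ℂ) * -(Real.pi * Complex.I / p) =
      -(2 * Real.pi * Complex.I) by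
        have : (p : ℂ) ≠ 0 := Nat.cast_ne_zero.mpr hp.ne_zero
        push_cast
        field_simp, Complex.exp_neg, Complex.exp_two_pi_mul_I, inv_one]
  have hc0 : c ≠ 0 := Complex.exp_ne_zero _
  let cu : ℂˣ := Units.mk0 c hc0
  let C := Subgroup.zpowers cu
  haveI : Finite C := by
    have : IsOfFinOrder cu := isOfFinOrder_iff_pow_eq_one.mpr
      ⟨2 * p, by have := hp.pos; omega, Units.ext hcN⟩
    exact this.finite_zpowers
  let τ : G × C →* (EuclideanSpace ℂ (Fin n) →L[ℂ] EuclideanSpace ℂ (Fin n)) :=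
    { toFun := fun g => ((g.2 : ℂˣ) : ℂ) • σ g.1
      map_one' := by simp
      map_mul' := fun g h => by
        rw [Prod.fst_mul, Prod.snd_mul, map_mul, smul_mul_smul_comm, Subgroup.coe_mul, Units.val_mul] }
  let H := (MonoidHom.toHomUnits τ).range
  let incl : H →* (EuclideanSpace ℂ (Fin n) →L[ℂ] EuclideanSpace ℂ (Fin n)) :=
    (Units.coeHom _).comp H.subtype
  haveI : Finite H := Finite.of_surjective _ (MonoidHom.toHomUnits τ).rangeRestrict_surjective
  have hnormC : ∀ d : C, ‖((d : ℂˣ) : ℂ)‖ = 1 := fun d =>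
    Complex.norm_eq_one_of_pow_eq_one (n := orderOf d)
      (by rw [← Units.val_pow_eq_pow_val, ← SubmonoidClass.coe_pow, pow_orderOf_eq_one,
        OneMemClass.coe_one, Units.val_one]) (orderOf_pos d).ne'
  have hincl : ∀ g w, ‖incl g w‖ = ‖w‖ := by
    rintro ⟨_, g, rfl⟩ w
    show ‖(((g.2 : ℂˣ) : ℂ) • σ g.1) w‖ = ‖w‖
    rw [ContinuousLinearMap.smul_apply, norm_smul, hnormC, hσ, one_mul]
  have hinclinj : Function.Injective incl := fun g h hgh => Subtype.ext (Units.ext hgh)
  let hh : G → H := fun g => ⟨_, ⟨(g, ⟨cu, Subgroup.mem_zpowers cu⟩), rfl⟩⟩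
  have hnear : H25.NearOne incl (hh y) := by
    refine H25.nearOne_of_eigenbasis hincl (hh y) (b.map e) (fun i => c * μ i ^ k) (fun i => ?_) ?_
    · show (c • σ y) (e (b i)) = (c * μ i ^ k) • e (b i)
      rw [ContinuousLinearMap.smul_apply, he, hy, hpowb, map_smul, smul_smul]
    · intro i
      have h7' : (7 : ℝ) ≤ p := by exact_mod_cast h7
      have hpi : 0 < Real.pi / p := div_pos Real.pi_pos (by linarith)
      have hlt : Real.pi / p < Real.pi / 6 :=
        div_lt_div_of_pos_left Real.pi_pos (by norm_num) (by linarith)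
      have hcos : √3 / 2 < Real.cos (Real.pi / p) := by
        rw [← Real.cos_pi_div_six]
        exact Real.cos_lt_cos_of_nonneg_of_le_pi hpi.le (by linarith [Real.pi_pos]) hlt
      rcases hμcases i with h | h
      · rw [h, one_pow, mul_one, hc, show -((Real.pi : ℂ) * Complex.I / p) =
          ((-(Real.pi / p) : ℝ) : ℂ) * Complex.I by push_cast; ring, Complex.exp_ofReal_mul_I_re,
          Real.cos_neg]
        exact hcos
      · rw [h, hk, hζ, hc, ← Complex.exp_add,
          show -((Real.pi : ℂ) * Complex.I / p) + 2 * Real.pi * Complex.I / p =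
            ((Real.pi / p : ℝ) : ℂ) * Complex.I by push_cast; ring, Complex.exp_ofReal_mul_I_re]
        exact hcos
  have hnear' : H25.NearOne incl (hh (x * y * x⁻¹)) := by
    let hx : H := ⟨_, ⟨(x, 1), rfl⟩⟩
    have : hh (x * y * x⁻¹) = hx * hh y * hx⁻¹ := by
      refine Subtype.ext ?_
      simp only [hh, hx, Subgroup.coe_mul, Subgroup.coe_inv, ← map_inv, ← map_mul]
      congr 1
      simp
    rw [this]
    exact hnear.conj hincl hx
  have hcom := hnear.commute hincl hinclinj hnear'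
  have hyc : Commute y (x * y * x⁻¹) := by
    refine hσinj ?_
    have h1 := congrArg incl hcom.eq
    rw [map_mul, map_mul] at h1
    change (c • σ y) * (c • σ (x * y * x⁻¹)) = (c • σ (x * y * x⁻¹)) * (c • σ y) at h1
    rw [smul_mul_smul_comm, smul_mul_smul_comm, ← map_mul, ← map_mul] at h1
    exact smul_right_injective _ (mul_ne_zero hc0 hc0) h1
  -- `z` is a power of `y`
  have hkp : k.Coprime p := by
    rw [Nat.coprime_comm, hp.coprime_iff_not_dvd]
    intro hdvd
    obtain ⟨q, rfl⟩ := hdvd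
    rw [pow_mul, hω, one_pow] at hk
    exact (Complex.isPrimitiveRoot_exp p hp.ne_zero).ne_one hp.one_lt (hζ ▸ hk.symm)
  obtain ⟨q, hq⟩ := exists_pow_eq_self_of_coprime (hz ▸ hkp : k.Coprime (orderOf z))
  have h2 := hyc.pow_pow q q
  rw [conj_pow, hq] at h2
  exact h2

/-- An abelian normal subgroup with a nonscalar element in a linear group of degree `< 2p`. -/
theorem not_sq_dvd_index {G : Type*} [Group G] [Fintype G] {p : ℕ} [hp : Fact p.Prime]
    (χ : IrrCharacter G) (hfaith : ∀ g, χ.1 g = χ.1 1 → g = 1) (hn : charDegree χ.1 < 2 * p)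
    (P : Sylow p G) (hna : ∃ a ∈ (P : Subgroup G), ∃ b ∈ (P : Subgroup G), a * b ≠ b * a)
    (A : Subgroup G) [A.Normal] (hA : ∀ a ∈ A, ∀ b ∈ A, a * b = b * a)
    (hAns : ∃ a ∈ A, ‖χ.1 a‖ ≠ (charDegree χ.1 : ℝ)) :
    ¬ p ^ 2 ∣ (pCore p G).index := by
  classical
  haveI : Fintype A := Fintype.ofFinite _
  set ψ : A → ℂ := fun a => χ.1 a with hψdef
  have hψ : IsCharacter A ψ := H43.isCharacter_restr A χ
  obtain ⟨θ₀, hθ₀⟩ := H43.exists_restrMult_ne_zero A χ
  set e := H43.restrMult A χ θ₀ with he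
  let X := {θ : IrrCharacter A // H43.restrMult A χ θ ≠ 0}
  have he_all : ∀ θ : X, H43.restrMult A χ θ.1 = e := fun θ => by
    obtain ⟨x, hx⟩ := H43.exists_irrConj_of_restrMult_ne_zero A χ hθ₀ θ.2
    rw [← hx, H43.restrMult_irrConj]
  have hlinA : ∀ θ : IrrCharacter A, ∃ f : A →* ℂˣ, ∀ a, (f a : ℂ) = θ.1 a := fun θ =>
    H26.exists_hom_of_isCharacter_one (H26.irr_isCharacter θ)
      (H26.irr_one_eq_one_of_comm (fun a b => Subtype.ext (hA a a.2 b b.2)) θ)
  have hdegA : ∀ θ : IrrCharacter A, charDegree θ.1 = 1 := fun θ => by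
    rw [charDegree, H26.irr_one_eq_one_of_comm (fun a b => Subtype.ext (hA a a.2 b b.2)) θ]
    simp
  have hψ_apply : ∀ a : A, χ.1 a = (e : ℂ) * ∑ θ : X, θ.1.1 a := fun a => by
    rw [show χ.1 a = ψ a from rfl, congrFun (H43.eq_sum_mult hψ) a, Finset.sum_apply, Finset.mul_sum]
    have : ∀ θ : X, (e : ℂ) * θ.1.1 a = ((H43.mult ψ θ.1 : ℂ) • θ.1.1) a := fun θ => by
      rw [Pi.smul_apply, smul_eq_mul, ← he_all θ]; rfl
    rw [Finset.sum_congr rfl fun θ _ => this θ,
      ← Finset.sum_subtype (Finset.univ.filter fun θ => H43.restrMult A χ θ ≠ 0)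
        (by simp) (fun θ : IrrCharacter A => ((H43.mult ψ θ : ℂ) • θ.1) a)]
    exact (Finset.sum_filter_of_ne (p := fun θ : IrrCharacter A => H43.restrMult A χ θ ≠ 0)
      fun θ _ h hz => h (by
        rw [Pi.smul_apply, show H43.mult ψ θ = 0 from hz, Nat.cast_zero, zero_smul])).symm
  set m := Fintype.card X with hm
  have hn_eq : charDegree χ.1 = e * m := by
    have h1 := hψ_apply 1
    simp only [Subgroup.coe_one, H43.irr_charDegree_spec, hdegA, Nat.cast_one, Finset.sum_const,
      Finset.card_univ, nsmul_eq_mul, mul_one, ← hm] at h1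
    exact_mod_cast h1
  have hm2 : 2 ≤ m := by
    by_contra h
    have hm1 : m = 1 := by
      have : 0 < m := Fintype.card_pos_iff.mpr ⟨⟨θ₀, hθ₀⟩⟩
      omega
    obtain ⟨a, ha, hne⟩ := hAns
    refine hne ?_
    obtain ⟨θ, hθ⟩ := Fintype.card_eq_one_iff.mp hm1
    have h1 := hψ_apply ⟨a, ha⟩
    rw [Fintype.sum_eq_single θ fun x hx => absurd (hθ x) hx] at h1
    obtain ⟨f, hf⟩ := hlinA θ.1
    rw [show χ.1 a = _ from h1, ← hf, norm_mul, Complex.norm_natCast, hn_eq, hm1,
      Complex.norm_eq_one_of_pow_eq_one (n := orderOf (⟨a, ha⟩ : A))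
        (by rw [← Units.val_pow_eq_pow_val, ← map_pow, pow_orderOf_eq_one, map_one, Units.val_one])
        (orderOf_pos _).ne', mul_one, mul_one]
  -- the action on the constituents
  have hone : ∀ θ : IrrCharacter A, H43.irrConj A (1 : G) θ = θ := fun θ =>
    Subtype.ext (funext fun a => by simp [H43.irrConj_apply])
  let act : G →* Equiv.Perm X :=
    { toFun := fun g =>
        { toFun := fun θ => ⟨H43.irrConj A g⁻¹ θ.1, by rw [H43.restrMult_irrConj]; exact θ.2⟩
          invFun := fun θ => ⟨H43.irrConj A g θ.1, by rw [H43.restrMult_irrConj]; exact θ.2⟩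
          left_inv := fun θ => Subtype.ext (by
            show H43.irrConj A g (H43.irrConj A g⁻¹ θ.1) = θ.1
            rw [H43.irrConj_irrConj, inv_mul_cancel, hone])
          right_inv := fun θ => Subtype.ext (by
            show H43.irrConj A g⁻¹ (H43.irrConj A g θ.1) = θ.1
            rw [H43.irrConj_irrConj, mul_inv_cancel, hone]) }
      map_one' := Equiv.ext fun θ => Subtype.ext (by
        show H43.irrConj A (1 : G)⁻¹ θ.1 = θ.1
        rw [inv_one, hone])
      map_mul' := fun g h => Equiv.ext fun θ => Subtype.ext (by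
        show H43.irrConj A (g * h)⁻¹ θ.1 = H43.irrConj A g⁻¹ (H43.irrConj A h⁻¹ θ.1)
        rw [H43.irrConj_irrConj, mul_inv_rev]) }
  set Z := act.ker with hZ
  have hcent : ∀ g ∈ Z, ∀ a ∈ A, g⁻¹ * a * g = a := by
    intro g hg a ha
    have hmem : g⁻¹ * a * g ∈ A := by simpa using (inferInstance : A.Normal).conj_mem a ha g⁻¹
    have hd : g⁻¹ * a * g * a⁻¹ = 1 := by
      refine hfaith _ ?_
      have hda : g⁻¹ * a * g * a⁻¹ ∈ A := mul_mem hmem (inv_mem ha)
      refine (hψ_apply ⟨_, hda⟩).trans ?_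
      rw [show χ.1 1 = χ.1 ((1 : A) : G) from rfl, hψ_apply 1]
      refine congrArg _ (Finset.sum_congr rfl fun θ _ => ?_)
      obtain ⟨f, hf⟩ := hlinA θ.1
      have h1 := congrArg (fun q : X => q.1.1 ⟨a, ha⟩) (Equiv.ext_iff.mp (MonoidHom.mem_ker.mp hg) θ)
      change θ.1.1 (MulAut.conjNormal g⁻¹ ⟨a, ha⟩) = θ.1.1 ⟨a, ha⟩ at h1
      rw [← hf, ← hf] at h1 ⊢
      rw [map_one, show (⟨_, hda⟩ : A) = MulAut.conjNormal g⁻¹ ⟨a, ha⟩ * (⟨a, ha⟩ : A)⁻¹ from
        Subtype.ext (by simp), map_mul, map_inv f, Units.val_mul, h1, ← Units.val_mul,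
        mul_inv_cancel]
    exact mul_inv_eq_one.mp hd
  have hAZ : A ≤ Z := fun a ha => Equiv.ext fun θ => Subtype.ext (Subtype.ext (funext fun b => by
    show θ.1.1 (MulAut.conjNormal a⁻¹ b) = θ.1.1 b
    refine congrArg θ.1.1 (Subtype.ext ?_)
    rw [MulAut.conjNormal_apply, inv_inv, hA _ (inv_mem ha) _ b.2, inv_mul_cancel_right]))
  haveI : Fintype Z := Fintype.ofFinite _
  -- constituents on the kernel have degree at most `e`
  have hdegZ : ∀ η : IrrCharacter Z, H43.mult (fun g : Z => χ.1 g) η ≠ 0 → charDegree η.1 ≤ e := by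
    intro η hη
    let j : A →* Z := Subgroup.inclusion hAZ
    have hηA : IsCharacter A (fun a => η.1 (j a)) := H26.isCharacter_comp (H26.irr_isCharacter η) j
    have hsc : ∀ a : A, ∃ ω : ℂ, ∀ x : Z, η.1 (j a * x) = ω * η.1 x := fun a => by
      obtain ⟨ω, -, hω⟩ := H28.Q8.irr_central η (c := j a) (Subgroup.mem_center_iff.mpr fun g =>
        Subtype.ext (by
          show (g : G) * (a : G) = (a : G) * (g : G)
          have h1 := hcent g g.2 a a.2
          calc (g : G) * (a : G) = (g : G) * ((g : G)⁻¹ * a * g) := by rw [h1]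
            _ = _ := by group))
      exact ⟨ω, hω⟩
    choose w hw using hsc
    have h10 := H26.irr_one_ne_zero η
    let F : A →* ℂ :=
      { toFun := w
        map_one' := by
          have := hw 1 1
          rw [map_one, one_mul] at this
          exact (mul_eq_right₀ h10).mp this.symm
        map_mul' := fun a a' => by
          have h1 := hw (a * a') 1
          rw [map_mul, mul_assoc, hw, hw, ← mul_assoc] at h1
          exact mul_right_cancel₀ h10 h1.symm }
    let δ : IrrCharacter A := ⟨_, H26.isIrrCharacter_hom F.toHomUnits⟩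
    have hηval : (fun a => η.1 (j a)) = (charDegree η.1 : ℂ) • δ.1 := funext fun a => by
      have h1 := hw a 1
      rw [mul_one, H43.irr_charDegree_spec] at h1
      rw [h1, Pi.smul_apply, smul_eq_mul, mul_comm]
      rfl
    have hall : H43.mult (fun a => η.1 (j a)) δ = charDegree η.1 := by
      refine H43.mult_eq_of_classInner ?_
      rw [hηval, H26.classInner_smul_left, H26.classInner_irr, if_pos rfl, mul_one]
    have hδ : H43.mult (fun a => η.1 (j a)) δ ≠ 0 := by
      rw [hall]; exact (H43.irr_charDegree_pos η).ne'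
    have hcomp := H43.mult_comp j (H26.isCharacter_comp (H26.irr_isCharacter χ) Z.subtype) δ
    have hδX : H43.restrMult A χ δ ≠ 0 := by
      intro h0
      have : H43.mult (fun a => χ.1 (j a)) δ = 0 := h0
      have h2 := (Finset.sum_eq_zero_iff.mp (hcomp.symm.trans this)) η (Finset.mem_univ η)
      rcases Nat.mul_eq_zero.mp h2 with h | h
      exacts [hη h, hδ h]
    have h3 : H43.mult (fun a => χ.1 (j a)) δ = e := he_all ⟨δ, hδX⟩
    rw [show (fun d => χ.1 (j d)) = fun d => χ.1 (Z.subtype (j d)) from rfl] at h3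
    have h4 := hcomp.symm.trans h3
    rw [← hall, ← h4]
    refine le_trans (Nat.le_mul_of_pos_left _ (Nat.pos_of_ne_zero hη)) ?_
    exact Finset.single_le_sum (f := fun η' => H43.mult (fun g : Z => χ.1 g) η' *
      H43.mult (fun d => η'.1 (j d)) δ) (fun _ _ => Nat.zero_le _) (Finset.mem_univ η)
  have hZc : IsCharacter Z (fun g : Z => χ.1 g) := H26.isCharacter_comp (H26.irr_isCharacter χ) Z.subtype
  rcases lt_or_ge m p with hmp | hmp
  · -- the Sylow subgroup lies in the kernel and is abelian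
    exfalso
    have hPZ : (P : Subgroup G) ≤ Z := by
      intro x hx
      obtain ⟨i, hi⟩ := IsPGroup.iff_orderOf.mp P.2 ⟨x, hx⟩
      rw [Subgroup.orderOf_mk] at hi
      have h1 : orderOf (act x) ∣ p ^ i := hi ▸ orderOf_map_dvd act x
      have h2 : orderOf (act x) ∣ m.factorial := by
        rw [← Fintype.card_perm, ← Nat.card_eq_fintype_card]
        exact orderOf_dvd_natCard _
      exact orderOf_eq_one_iff.mp (Nat.eq_one_of_dvd_coprimes
        (((hp.out.coprime_iff_not_dvd).mpr fun h => by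
          have := (hp.out.dvd_factorial).mp h; omega).pow_left i) h1 h2)
    obtain ⟨a, ha, b, hb, hab⟩ := hna
    apply hab
    haveI : Fintype (P : Subgroup G) := Fintype.ofFinite _
    have hep : e < p := by
      have h := hn
      rw [hn_eq] at h
      nlinarith
    let i : (P : Subgroup G) →* Z := Subgroup.inclusion hPZ
    have hval : χ.1 (a * b * a⁻¹ * b⁻¹) = χ.1 1 := by
      have h1 : ∀ η : IrrCharacter Z, H43.mult (fun g : Z => χ.1 g) η ≠ 0 →
          η.1 (i (⟨a, ha⟩ * ⟨b, hb⟩ * (⟨a, ha⟩ : (P : Subgroup G))⁻¹ *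
            (⟨b, hb⟩ : (P : Subgroup G))⁻¹)) = η.1 1 := by
        intro η hη
        have hηP : IsCharacter (P : Subgroup G) (fun x => η.1 (i x)) :=
          H26.isCharacter_comp (H26.irr_isCharacter η) i
        have hd : charDegree (fun x => η.1 (i x)) = charDegree η.1 := by
          simp only [charDegree, map_one]
        refine (apply_commutator_eq hηP (fun δ hδ => charDegree_eq_one_of_lt P.2 δ ?_) _ _).trans ?_
        · exact lt_of_le_of_lt ((le_of_mult_ne_zero hηP hδ).trans (hd.le.trans (hdegZ η hη))) hep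
        · rw [map_one]
      have hA1 := congrFun (H43.eq_sum_mult hZc)
        (i (⟨a, ha⟩ * ⟨b, hb⟩ * (⟨a, ha⟩ : (P : Subgroup G))⁻¹ * (⟨b, hb⟩ : (P : Subgroup G))⁻¹))
      have hA2 := congrFun (H43.eq_sum_mult hZc) 1
      refine hA1.trans (Eq.trans ?_ hA2.symm)
      rw [Finset.sum_apply, Finset.sum_apply]
      refine Finset.sum_congr rfl fun η _ => ?_
      rw [Pi.smul_apply, Pi.smul_apply]
      by_cases h : H43.mult (fun g : Z => χ.1 g) η = 0
      · rw [h, Nat.cast_zero, zero_smul, zero_smul]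
      · rw [h1 η h]
    have h5 := hfaith _ hval
    rwa [mul_inv_eq_one, mul_inv_eq_iff_eq_mul] at h5
  · -- the kernel is abelian
    have he1 : e = 1 := by
      have h1 : 0 < e := Nat.pos_of_ne_zero hθ₀
      have h2 := hn
      rw [hn_eq] at h2
      nlinarith
    have hZab : ∀ a b : Z, a * b = b * a := by
      intro a b
      have h1 := apply_commutator_eq hZc (fun η hη => by
        have := hdegZ η hη
        have := H43.irr_charDegree_pos η
        omega) a b
      have h2 : ((a * b * a⁻¹ * b⁻¹ : Z) : G) = 1 := hfaith _ h1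
      have h3 : a * b * a⁻¹ * b⁻¹ = 1 := Subtype.ext h2
      rwa [mul_inv_eq_one, mul_inv_eq_iff_eq_mul] at h3
    obtain ⟨S⟩ : Nonempty (Sylow p Z) := inferInstance
    haveI : (S : Subgroup Z).Normal := ⟨fun x hx g => by
      rw [hZab g x, mul_inv_cancel_right]; exact hx⟩
    haveI : (S : Subgroup Z).Characteristic := S.characteristic_of_normal inferInstance
    have hle : (S : Subgroup Z).map Z.subtype ≤ pCore p G :=
      H19.le_pCore ConjAct.normal_of_characteristic_of_normal (S.2.map _)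
    intro hdvd
    have h1 : (pCore p G).index ∣ ((S : Subgroup Z).map Z.subtype).index :=
      Subgroup.index_dvd_of_le hle
    rw [Subgroup.index_map, Z.ker_subtype, sup_bot_eq, Z.range_subtype] at h1
    have h2 : ¬ p ∣ (S : Subgroup Z).index := S.not_dvd_index
    have h3 : p ^ 2 ∣ Z.index := by
      have := (Nat.Coprime.pow_left 2 ((hp.out.coprime_iff_not_dvd).mpr h2)).dvd_of_dvd_mul_left
        (hdvd.trans h1)
      exact this
    have h4 : Z.index ∣ m.factorial := by
      rw [hZ, Subgroup.index_ker, hm, ← Fintype.card_perm, ← Nat.card_eq_fintype_card]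
      exact Subgroup.card_subgroup_dvd_card _
    have h5 := (Nat.Prime.pow_dvd_factorial_iff hp.out (show Nat.log p m < 2 from ?_)).mp
      (h3.trans h4)
    · rw [Finset.sum_Ico_eq_sum_range] at h5
      simp at h5
      have : m / p < 2 := Nat.div_lt_of_lt_mul (by nlinarith)
      omega
    · exact Nat.log_lt_of_lt_pow (by omega) (by nlinarith [hp.out.two_le])

end Cfsg.Agent.H27.TwoP
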